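import Mathlib
import Cfsg.Prelude.Def_ClassificationK
import Cfsg.Agent.Lib.H1.Cores

set_option autoImplicit false
open Cfsg

namespace H35.SympType

/-- quasisimplicity transports along isomorphisms -/
theorem quasisimple_congr {A B : Type*} [Group A] [Group B] (e : A ≃* B) (h : Cfsg.IsQuasisimple A) :
    Cfsg.IsQuasisimple B := by
  obtain ⟨hp, hs⟩ := h
  refine ⟨?_, ?_⟩
  · have := hp
    exact Group.IsPerfect.ofSurjective (f := e.toMonoidHom) e.surjective
  · have e' : (A ⧸ Subgroup.center A) ≃* (B ⧸ Subgroup.center B) := by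
      refine QuotientGroup.congr _ _ e ?_
      ext x
      simp only [Subgroup.mem_map]
      constructor
      · rintro ⟨y, hy, rfl⟩
        rw [Subgroup.mem_center_iff] at hy ⊢
        intro g
        have := congrArg e (hy (e.symm g))
        simpa using this
      · intro hx
        refine ⟨e.symm x, ?_, by simp⟩
        rw [Subgroup.mem_center_iff] at hx ⊢
        intro g
        have := congrArg e.symm (hx (e g))
        simpa using this
    exact (MulEquiv.isSimpleGroup_congr e').mp hs

theorem isComponent_map_equiv {G : Type*} [Group G] (e : G ≃* G) {K : Subgroup G} (h : Cfsg.IsComponent K) :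
    Cfsg.IsComponent (K.map e.toMonoidHom) :=
  ⟨h.1.map (f := e.toMonoidHom) e.surjective, quasisimple_congr (K.equivMapOfInjective e.toMonoidHom e.injective) h.2⟩

instance layer_normal {G : Type*} [Group G] : (Cfsg.layer G).Normal := by
  refine ⟨fun n hn g => ?_⟩
  have h : (Cfsg.layer G).map (MulAut.conj g).toMonoidHom ≤ Cfsg.layer G := by
    rw [Cfsg.layer, sSup_eq_iSup, Subgroup.map_iSup]
    refine iSup_le fun K => ?_
    rw [Subgroup.map_iSup]
    refine iSup_le fun hK => ?_
    exact le_sSup (a := K.map (MulAut.conj g).toMonoidHom) (isComponent_map_equiv (MulAut.conj g) hK) |>.trans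
      (by rw [sSup_eq_iSup])
  exact h ⟨n, hn, rfl⟩

instance gfs_normal {G : Type*} [Group G] : (Cfsg.generalizedFittingSubgroup G).Normal := by
  rw [Cfsg.generalizedFittingSubgroup]
  have h2 : (Cfsg.fittingSubgroup G).Normal := inferInstance
  have h3 : (Cfsg.layer G).Normal := inferInstance
  infer_instance

/-- central elements lie in F* -/
theorem center_le_gfs {G : Type*} [Group G] : Subgroup.center G ≤ Cfsg.generalizedFittingSubgroup G := by
  refine le_trans ?_ le_sup_right
  have h : Group.IsNilpotent (Subgroup.center G) :=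
    Subgroup.nilpotent_iff_lowerCentralSeries.mpr ⟨1, by
      rw [Subgroup.lowerCentralSeries_one_eq_bot_iff]
      infer_instance⟩
  exact le_sSup ⟨inferInstance, h⟩

/-- a cyclic finite group has at most one involution -/
theorem cyclic_unique_involution {A : Type*} [Group A] [Finite A] (hA : IsCyclic A) {x y : A}
    (hx : orderOf x = 2) (hy : orderOf y = 2) : x = y := by
  classical
  have := Fintype.ofFinite A
  have h2 : 2 ∣ Fintype.card A := by rw [← hx]; exact orderOf_dvd_card
  have h := IsCyclic.card_orderOf_eq_totient (α := A) (d := 2) h2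
  rw [Nat.totient_two, Finset.card_eq_one] at h
  obtain ⟨w, hw⟩ := h
  have h3 : x ∈ ({a | orderOf a = 2} : Finset A) := by simp [hx]
  have h4 : y ∈ ({a | orderOf a = 2} : Finset A) := by simp [hy]
  rw [hw, Finset.mem_singleton] at h3 h4
  rw [h3, h4]

section
variable {G : Type*} [Group G] (z : G)

/-- `z` as an element of its own centralizer. -/
def zC : ↥(Subgroup.centralizer ({z} : Set G)) := ⟨z, Subgroup.mem_centralizer_singleton_iff.mpr rfl⟩

theorem zC_mem_center : zC z ∈ Subgroup.center ↥(Subgroup.centralizer ({z} : Set G)) := by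
  rw [Subgroup.mem_center_iff]
  rintro ⟨g, hg⟩
  apply Subtype.ext
  exact Subgroup.mem_centralizer_singleton_iff.mp hg

/-- `z` as an element of `F*(C(z))`. -/
def zF : ↥(Cfsg.generalizedFittingSubgroup ↥(Subgroup.centralizer ({z} : Set G))) :=
  ⟨zC z, center_le_gfs (zC_mem_center z)⟩

theorem zF_mem_center : zF z ∈ Subgroup.center ↥(Cfsg.generalizedFittingSubgroup ↥(Subgroup.centralizer ({z} : Set G))) := by
  rw [Subgroup.mem_center_iff]
  rintro ⟨g, hg⟩
  apply Subtype.ext
  exact Subgroup.mem_center_iff.mp (zC_mem_center z) g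

theorem orderOf_zF (hz : orderOf z = 2) : orderOf (zF z) = 2 := by
  rw [zF, Subgroup.orderOf_mk, zC, Subgroup.orderOf_mk, hz]

variable {z}

/-- an involution of a characteristic cyclic subgroup of a group whose centre is cyclic is the central one -/
theorem unique_inv_of_char {Q : Type*} [Group Q] [Finite Q] (hZ : IsCyclic (Subgroup.center Q)) {w : Q}
    (hw : w ∈ Subgroup.center Q) (hw2 : orderOf w = 2) {B : Subgroup Q} (hB : B.Normal) (hBc : IsCyclic B)
    {b : Q} (hb : b ∈ B) (hb2 : orderOf b = 2) : b = w := by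
  have hbc : b ∈ Subgroup.center Q := by
    rw [Subgroup.mem_center_iff]
    intro q
    have h1 : q * b * q⁻¹ ∈ B := hB.conj_mem b hb q
    have h2 : orderOf (q * b * q⁻¹) = 2 := by
      rw [← hb2]
      exact orderOf_injective (MulAut.conj q).toMonoidHom (MulAut.conj q).injective b
    have h3 : (⟨q * b * q⁻¹, h1⟩ : B) = ⟨b, hb⟩ :=
      cyclic_unique_involution hBc (by rw [Subgroup.orderOf_mk]; exact h2) (by rw [Subgroup.orderOf_mk]; exact hb2)
    have h4 : q * b * q⁻¹ = b := congrArg Subtype.val h3
    rw [mul_inv_eq_iff_eq_mul] at h4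
    exact h4
  have h5 : (⟨b, hbc⟩ : Subgroup.center Q) = ⟨w, hw⟩ :=
      cyclic_unique_involution hZ (by rw [Subgroup.orderOf_mk]; exact hb2) (by rw [Subgroup.orderOf_mk]; exact hw2)
  exact congrArg Subtype.val h5

end

end H35.SympType
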