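import Mathlib
import Cfsg.Agent.Lib.H3.PBasic
import Cfsg.Agent.Lib.H35.SympType

set_option autoImplicit false

namespace H35.SympExp4

open Subgroup

/-- characteristic of characteristic is characteristic -/
theorem char_map_subtype {Q : Type*} [Group Q] (M : Subgroup Q) [M.Characteristic] (A : Subgroup M) [hA : A.Characteristic] :
    (A.map M.subtype).Characteristic := by
  rw [characteristic_iff_map_le]
  rintro φ x ⟨y, ⟨a, ha, rfl⟩, rfl⟩
  refine ⟨MulAut.characteristic M φ a, ?_, rfl⟩
  exact (characteristic_iff_map_le.mp hA (MulAut.characteristic M φ)) ⟨a, ha, rfl⟩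

theorem isMulCommutative_map {Q : Type*} [Group Q] (M : Subgroup Q) (A : Subgroup M) (h : IsMulCommutative A) :
    IsMulCommutative (A.map M.subtype) := by
  refine ⟨⟨?_⟩⟩
  rintro ⟨x, ⟨a, ha, rfl⟩⟩ ⟨y, ⟨b, hb, rfl⟩⟩
  apply Subtype.ext
  have h1 : (⟨a, ha⟩ : A) * ⟨b, hb⟩ = ⟨b, hb⟩ * ⟨a, ha⟩ := h.is_comm.comm _ _
  have h2 : a * b = b * a := congrArg Subtype.val h1
  exact congrArg (M.subtype) h2

theorem isCyclic_of_map {Q : Type*} [Group Q] (M : Subgroup Q) (A : Subgroup M) (h : IsCyclic (A.map M.subtype)) :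
    IsCyclic A := by
  have e : A ≃* A.map M.subtype := A.equivMapOfInjective M.subtype M.subtype_injective
  exact isCyclic_of_surjective e.symm.toMonoidHom e.symm.surjective

/-- `Q` has all its characteristic abelian subgroups cyclic and exponent dividing 4 -/
structure Good (Q : Type*) [Group Q] : Prop where
  pg : IsPGroup 2 Q
  cyc : ∀ A : Subgroup Q, A.Characteristic → IsMulCommutative A → IsCyclic A
  exp : ∀ q : Q, q ^ 4 = 1

theorem Good.char {Q : Type*} [Group Q] (h : Good Q) (M : Subgroup Q) [M.Characteristic] : Good M where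
  pg := h.pg.to_subgroup M
  cyc := by
    intro A hA hc
    exact isCyclic_of_map M A (h.cyc _ (char_map_subtype M A) (isMulCommutative_map M A hc))
  exp q := Subtype.ext (h.exp q)

/-- the commutator, our convention -/
def cm {Q : Type*} [Group Q] (a b : Q) : Q := a * b * a⁻¹ * b⁻¹

theorem cm_eq_one {Q : Type*} [Group Q] {a b : Q} : cm a b = 1 ↔ a * b = b * a := by
  unfold cm
  rw [mul_inv_eq_one, mul_inv_eq_iff_eq_mul]

/-- commutators lie in `{1, ζ}` -/
def Small (Q : Type*) [Group Q] (ζ : Q) : Prop :=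
  ζ * ζ = 1 ∧ (∀ q, ζ * q = q * ζ) ∧ ∀ a b : Q, cm a b = 1 ∨ cm a b = ζ

section small
variable {Q : Type*} [Group Q] {ζ : Q} (h : Small Q ζ)
include h

theorem Small.central (a b q : Q) : cm a b * q = q * cm a b := by
  rcases h.2.2 a b with h1 | h1 <;> rw [h1]
  · simp
  · exact h.2.1 q

theorem Small.sq (a b : Q) : cm a b * cm a b = 1 := by
  rcases h.2.2 a b with h1 | h1 <;> rw [h1]
  · simp
  · exact h.1

theorem Small.mul_right (a q r : Q) : cm a (q * r) = cm a q * cm a r := by
  have h2 := h.central a r q⁻¹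
  unfold cm at *
  calc a * (q * r) * a⁻¹ * (q * r)⁻¹ = (a * q * a⁻¹) * ((a * r * a⁻¹ * r⁻¹) * q⁻¹) := by group
    _ = (a * q * a⁻¹) * (q⁻¹ * (a * r * a⁻¹ * r⁻¹)) := by rw [h2]
    _ = _ := by group

theorem Small.symm (a b : Q) : cm a b = cm b a := by
  have h1 : cm a b * cm b a = 1 := by unfold cm; group
  have h2 := h.sq a b
  exact mul_left_cancel (h2.trans h1.symm)

theorem Small.mul_left (a q r : Q) : cm (q * r) a = cm q a * cm r a := by
  rw [h.symm, h.mul_right, h.symm a q, h.symm a r]

theorem Small.sq_central (a q : Q) : (a * a) * q = q * (a * a) := by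
  rw [← cm_eq_one, h.mul_left, h.sq]

theorem Small.inv_left (a q : Q) : cm a⁻¹ q = cm a q := by
  have h1 : cm (a⁻¹ * a) q = cm a⁻¹ q * cm a q := h.mul_left q _ _
  have h2 : cm (a⁻¹ * a) q = 1 := by rw [cm_eq_one]; simp
  rw [h2] at h1
  exact mul_right_cancel (h1.symm.trans (h.sq a q).symm)

end small

/-- ABCs of the fourth power in class two -/
theorem class_two_pow4 {Q : Type*} [Group Q] (a b : Q) (hc : ∀ q, cm a b * q = q * cm a b) :
    (a * b) ^ 4 = a ^ 4 * b ^ 4 * (cm a b)⁻¹ ^ 6 := by
  -- b a = c⁻¹ a b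
  set c := cm a b with hcdef
  have hba : b * a = c⁻¹ * (a * b) := by rw [hcdef]; unfold cm; group
  have hci : ∀ q, c⁻¹ * q = q * c⁻¹ := by
    intro q
    have := hc (q)
    calc c⁻¹ * q = c⁻¹ * (q * c) * c⁻¹ := by group
      _ = c⁻¹ * (c * q) * c⁻¹ := by rw [this]
      _ = q * c⁻¹ := by group
  have e1 : b * a ^ 2 = c⁻¹ ^ 2 * (a ^ 2 * b) := by
    calc b * a ^ 2 = (b * a) * a := by rw [pow_two, mul_assoc]
      _ = (c⁻¹ * (a * b)) * a := by rw [hba]
      _ = (c⁻¹ * a) * (b * a) := by group
      _ = (c⁻¹ * a) * (c⁻¹ * (a * b)) := by rw [hba]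
      _ = c⁻¹ * (a * c⁻¹) * (a * b) := by group
      _ = c⁻¹ * (c⁻¹ * a) * (a * b) := by rw [← hci a]
      _ = _ := by simp only [pow_two, mul_assoc]
  have e0 : (a * b) ^ 2 = c⁻¹ * (a ^ 2 * b ^ 2) := by
    calc (a * b) ^ 2 = a * (b * a) * b := by simp only [pow_two, mul_assoc]
      _ = a * (c⁻¹ * (a * b)) * b := by rw [hba]
      _ = (a * c⁻¹) * (a * b) * b := by group
      _ = (c⁻¹ * a) * (a * b) * b := by rw [← hci a]
      _ = _ := by simp only [pow_two, mul_assoc]
  have e2 : b ^ 2 * a ^ 2 = c⁻¹ ^ 4 * (a ^ 2 * b ^ 2) := by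
    calc b ^ 2 * a ^ 2 = b * (b * a ^ 2) := by rw [pow_two b]; group
      _ = (b * c⁻¹ ^ 2) * (a ^ 2 * b) := by rw [e1]; group
      _ = (c⁻¹ ^ 2 * b) * (a ^ 2 * b) := by
          have : b * c⁻¹ ^ 2 = c⁻¹ ^ 2 * b := by
            rw [pow_two, ← mul_assoc, ← hci b, mul_assoc, ← hci b, ← mul_assoc]
          rw [this]
      _ = c⁻¹ ^ 2 * (b * a ^ 2) * b := by group
      _ = c⁻¹ ^ 2 * (c⁻¹ ^ 2 * (a ^ 2 * b)) * b := by rw [e1]
      _ = _ := by rw [pow_two b]; group
  have hck : ∀ (n : ℕ) q, c⁻¹ ^ n * q = q * c⁻¹ ^ n := by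
    intro n q
    induction n with
    | zero => simp
    | succ n ih => rw [pow_succ, mul_assoc, hci, ← mul_assoc, ih, mul_assoc]
  calc (a * b) ^ 4 = (a * b) ^ 2 * (a * b) ^ 2 := by rw [← pow_add]
    _ = c⁻¹ * (a ^ 2 * b ^ 2) * (c⁻¹ * (a ^ 2 * b ^ 2)) := by rw [e0]
    _ = c⁻¹ * ((a ^ 2 * b ^ 2) * c⁻¹) * (a ^ 2 * b ^ 2) := by simp only [mul_assoc]
    _ = c⁻¹ * (c⁻¹ * (a ^ 2 * b ^ 2)) * (a ^ 2 * b ^ 2) := by rw [← hci (a ^ 2 * b ^ 2)]
    _ = c⁻¹ ^ 2 * (a ^ 2 * (b ^ 2 * a ^ 2) * b ^ 2) := by rw [pow_two c⁻¹]; simp only [mul_assoc]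
    _ = c⁻¹ ^ 2 * (a ^ 2 * (c⁻¹ ^ 4 * (a ^ 2 * b ^ 2)) * b ^ 2) := by rw [e2]
    _ = c⁻¹ ^ 2 * ((a ^ 2 * c⁻¹ ^ 4) * (a ^ 2 * b ^ 2) * b ^ 2) := by group
    _ = c⁻¹ ^ 2 * ((c⁻¹ ^ 4 * a ^ 2) * (a ^ 2 * b ^ 2) * b ^ 2) := by rw [hck 4]
    _ = c⁻¹ ^ 6 * (a ^ 4 * b ^ 4) := by group
    _ = _ := hck 6 _

theorem pow4 {Q : Type*} [Group Q] (x : Q) : x * x * (x * x) = x ^ 4 := by
  rw [← pow_two, ← pow_two, ← pow_mul]

/-- The main structural result: in a finite 2-group of exponent dividing 4 all of whose characteristic abelian subgroups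
are cyclic, commutators take at most two values `1, ζ`, `ζ` central with `ζ² = 1`. -/
theorem good_small (n : ℕ) : ∀ (Q : Type*) [Group Q] [Finite Q], Nat.card Q = n → Good Q → ∃ ζ : Q, Small Q ζ := by
  induction n using Nat.strong_induction_on with
  | _ n ih =>
  intro Q _ _ hn hQ
  classical
  have hZ : IsCyclic (center Q) := hQ.cyc _ inferInstance inferInstance
  have huniq : ∀ x y : Q, x ∈ center Q → y ∈ center Q → x * x = 1 → y * y = 1 → x ≠ 1 → y ≠ 1 → x = y := by
    intro x y hx hy hx2 hy2 hx1 hy1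
    have h1 : orderOf (⟨x, hx⟩ : center Q) = 2 := by
      rw [Subgroup.orderOf_mk]; exact orderOf_eq_prime (by rw [pow_two]; exact hx2) hx1
    have h2 : orderOf (⟨y, hy⟩ : center Q) = 2 := by
      rw [Subgroup.orderOf_mk]; exact orderOf_eq_prime (by rw [pow_two]; exact hy2) hy1
    exact congrArg Subtype.val (H35.SympType.cyclic_unique_involution hZ h1 h2)
  have hnil : Group.IsNilpotent Q := hQ.pg.isNilpotent
  by_cases hclass : commutator Q ≤ center Q
  · -- class at most two
    have hsq : ∀ a b : Q, cm a b ∈ center Q ∧ cm a b * cm a b = 1 := by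
      intro a b
      have h1 : cm a b ∈ center Q := by
        apply hclass
        rw [commutator_def]
        exact Subgroup.commutator_mem_commutator (Subgroup.mem_top a) (Subgroup.mem_top b)
      refine ⟨h1, ?_⟩
      have h2 := class_two_pow4 a b (fun q => (Subgroup.mem_center_iff.mp h1 q).symm)
      rw [hQ.exp, hQ.exp, hQ.exp, one_mul, one_mul] at h2
      have h3 := hQ.exp (cm a b)
      have h4 : (cm a b)⁻¹ ^ 6 = (cm a b * cm a b) * ((cm a b) ^ 4)⁻¹ ^ 2 := by group
      rw [h4, h3] at h2
      simpa using h2.symm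
    by_cases hall : ∀ a b : Q, cm a b = 1
    · exact ⟨1, by simp, by simp, fun a b => Or.inl (hall a b)⟩
    · push Not at hall
      obtain ⟨a, b, hab⟩ := hall
      refine ⟨cm a b, (hsq a b).2, fun q => (Subgroup.mem_center_iff.mp (hsq a b).1 q).symm, ?_⟩
      intro x y
      by_cases hxy : cm x y = 1
      · exact Or.inl hxy
      · right
        exact huniq _ _ (hsq x y).1 (hsq a b).1 (hsq x y).2 (hsq a b).2 hxy hab
  · -- class at least three
    set D := commutator Q with hD
    have hDn : D.Normal := inferInstance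
    have hlt : D ⊓ center Q < D := by
      refine lt_of_le_of_ne inf_le_left ?_
      intro h
      exact hclass (inf_eq_left.mp h)
    have hfact : Fact (Nat.Prime 2) := ⟨Nat.prime_two⟩
    obtain ⟨K, hKn, hK1, hK2, hK3, hK4⟩ := H3.PBasic.exists_normal_between hQ.pg (D ⊓ center Q) D hlt
    -- K is not central
    have hKZ : ¬ K ≤ center Q := by
      intro h
      have h1 : K = D ⊓ center Q := le_antisymm (le_inf hK2 h) hK1
      rw [h1] at hK3
      have h2 : 0 < Nat.card ↥(D ⊓ center Q) := Nat.card_pos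
      omega
    -- K centralizes D
    have hKD : K ≤ centralizer (D : Set Q) := by
      intro k hk
      have hkz : ∀ q, cm k q ∈ center Q := by
        intro q
        have : cm k q ∈ D ⊓ center Q := hK4 (Subgroup.commutator_mem_commutator hk (Subgroup.mem_top q))
        exact this.2
      rw [mem_centralizer_iff]
      intro d hd
      -- the map q ↦ [k,q] is a homomorphism to an abelian group
      let f : Q →* Q :=
        { toFun := fun q => cm k q
          map_one' := by unfold cm; group
          map_mul' := by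
            intro q r
            have h2 := (Subgroup.mem_center_iff.mp (hkz r) q⁻¹).symm
            unfold cm at *
            calc k * (q * r) * k⁻¹ * (q * r)⁻¹ = (k * q * k⁻¹) * ((k * r * k⁻¹ * r⁻¹) * q⁻¹) := by group
              _ = (k * q * k⁻¹) * (q⁻¹ * (k * r * k⁻¹ * r⁻¹)) := by rw [h2]
              _ = _ := by group }
      have hf : D ≤ f.ker := by
        rw [hD, commutator_def, Subgroup.commutator_le]
        intro a _ b _
        rw [MonoidHom.mem_ker, commutatorElement_def, map_mul, map_mul, map_mul, map_inv, map_inv]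
        have h3 := Subgroup.mem_center_iff.mp (hkz a) (f b)
        change f b * f a = f a * f b at h3
        rw [← h3]; group
      have h4 : cm k d = 1 := hf hd
      rw [cm_eq_one] at h4
      exact h4.symm
    set U := D ⊓ centralizer (D : Set Q) with hU
    have hKU : K ≤ U := le_inf hK2 hKD
    have hUchar : U.Characteristic := by
      have h1 : D.Characteristic := inferInstance
      have h2 : (centralizer (D : Set Q)).Characteristic := inferInstance
      rw [characteristic_iff_map_le]
      intro φ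
      refine le_trans (Subgroup.map_inf_le _ _ _) ?_
      exact inf_le_inf (characteristic_iff_map_le.mp h1 φ) (characteristic_iff_map_le.mp h2 φ)
    have hUcomm : IsMulCommutative U := by
      refine ⟨⟨?_⟩⟩
      rintro ⟨x, hx⟩ ⟨y, hy⟩
      apply Subtype.ext
      exact (mem_centralizer_iff.mp hy.2 x hx.1)
    have hUcyc : IsCyclic U := hQ.cyc U hUchar hUcomm
    have hUn : U.Normal := inferInstance
    -- pick u in K noncentral
    obtain ⟨u, huK, huZ⟩ := SetLike.not_le_iff_exists.mp hKZ
    have huU : u ∈ U := hKU huK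
    -- involutions of U are central
    have hUinv : ∀ x ∈ U, x * x = 1 → x ∈ center Q := by
      intro x hx hx2
      by_cases hx1 : x = 1
      · rw [hx1]; exact one_mem _
      rw [mem_center_iff]
      intro q
      have h1 : q * x * q⁻¹ ∈ U := hUn.conj_mem x hx q
      have h2 : orderOf x = 2 := orderOf_eq_prime (by rw [pow_two]; exact hx2) hx1
      have h3 : orderOf (q * x * q⁻¹) = 2 := by
        rw [← h2]
        exact orderOf_injective (MulAut.conj q).toMonoidHom (MulAut.conj q).injective x
      have h4 : (⟨q * x * q⁻¹, h1⟩ : U) = ⟨x, hx⟩ :=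
        H35.SympType.cyclic_unique_involution hUcyc (by rw [Subgroup.orderOf_mk]; exact h3)
          (by rw [Subgroup.orderOf_mk]; exact h2)
      have h5 : q * x * q⁻¹ = x := congrArg Subtype.val h4
      rw [mul_inv_eq_iff_eq_mul] at h5
      exact h5
    set ζ := u * u with hζ
    have hζU : ζ ∈ U := U.mul_mem huU huU
    have hζ2 : ζ * ζ = 1 := by
      have := hQ.exp u
      rw [hζ, pow4]
      exact this
    have hζ1 : ζ ≠ 1 := fun h => huZ (hUinv u huU h)
    have hζZ : ζ ∈ center Q := hUinv ζ hζU hζ2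
    -- |U| = 4
    have hUcard : Nat.card U = 4 := by
      obtain ⟨g, hg⟩ := hUcyc.exists_generator
      have h1 : Nat.card U = orderOf g := by
        rw [← Nat.card_zpowers]
        exact (Nat.card_congr (Equiv.subtypeUnivEquiv hg)).symm
      have h2 : orderOf g ∣ 4 := orderOf_dvd_of_pow_eq_one (Subtype.ext (hQ.exp g))
      have h3 : orderOf u = 4 := by
        apply orderOf_eq_prime_pow (p := 2) (n := 1)
        · rw [pow_one, pow_two]; exact hζ1
        · exact hQ.exp u
      have h4 : 4 ∣ Nat.card U := by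
        rw [← h3, ← Subgroup.orderOf_mk u huU]
        exact orderOf_dvd_natCard _
      rw [h1] at h4 ⊢
      exact Nat.dvd_antisymm h2 h4
    have hUζ : ∀ x ∈ U, x * x = 1 → x = 1 ∨ x = ζ := by
      intro x hx hx2
      by_cases hx1 : x = 1
      · exact Or.inl hx1
      · exact Or.inr (huniq x ζ (hUinv x hx hx2) hζZ hx2 hζ2 hx1 hζ1)
    -- M
    set M := centralizer (U : Set Q) with hM
    have hMchar : M.Characteristic := inferInstance
    have hMn : M.Normal := inferInstance
    have hUM : U ≤ M := by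
      intro x hx
      rw [hM, mem_centralizer_iff]
      intro y hy
      have := hUcomm.is_comm.comm (⟨y, hy⟩ : U) ⟨x, hx⟩
      exact congrArg Subtype.val this
    have hDM : D ≤ M := by
      intro d hd
      rw [hM, mem_centralizer_iff]
      intro y hy
      exact (mem_centralizer_iff.mp hy.2 d hd).symm
    -- u generates U: x ∈ U -> x in {1,u,ζ,ζu}
    have hUelt : ∀ x ∈ U, x = 1 ∨ x = ζ ∨ x = u ∨ x = ζ * u := by
      intro x hx
      by_cases h1 : x * x = 1
      · rcases hUζ x hx h1 with h | h
        · exact Or.inl h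
        · exact Or.inr (Or.inl h)
      · -- x * x = ζ, (x u⁻¹)^2 = 1
        have h2 : x * x = ζ := by
          rcases hUζ (x * x) (U.mul_mem hx hx) (by rw [pow4]; exact hQ.exp x) with h | h
          · exact absurd h h1
          · exact h
        have h3 : x * u = u * x := (mem_centralizer_iff.mp (hUM huU) x hx)
        have h4 : (x * u) * (x * u) = 1 := by
          calc (x * u) * (x * u) = x * (u * x) * u := by group
            _ = x * (x * u) * u := by rw [h3]
            _ = (x * x) * (u * u) := by group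
            _ = 1 := by rw [h2, ← hζ, hζ2]
        rcases hUζ (x * u) (U.mul_mem hx huU) h4 with h | h
        · -- x = u⁻¹ = ζ u
          right; right; right
          have h7 : x = u⁻¹ := eq_inv_of_mul_eq_one_left h
          have h8 : u⁻¹ = ζ * u := by
            apply inv_eq_of_mul_eq_one_left
            rw [mul_assoc, ← hζ, hζ2]
          rw [h7, h8]
        · right; right; left
          have h5 : x * u * u = ζ * u := by rw [h]
          rw [mul_assoc, ← hζ] at h5
          have h6 := mem_center_iff.mp hζZ x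
          rw [h6] at h5
          exact mul_left_cancel h5
    -- elements outside M invert u
    have hinvert : ∀ q, q ∉ M → q * u * q⁻¹ = ζ * u := by
      intro q hq
      have h1 : q * u * q⁻¹ ∈ U := hUn.conj_mem u huU q
      rcases hUelt _ h1 with h | h | h | h
      · exfalso
        have : u = 1 := by
          calc u = q⁻¹ * (q * u * q⁻¹) * q := by group
            _ = 1 := by rw [h]; group
        exact huZ (by rw [this]; exact one_mem _)
      · exfalso
        have : u = ζ := by
          calc u = q⁻¹ * (q * u * q⁻¹) * q := by group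
            _ = q⁻¹ * (ζ * q) := by rw [h]; group
            _ = q⁻¹ * (q * ζ) := by rw [mem_center_iff.mp hζZ q]
            _ = ζ := by group
        exact huZ (by rw [this]; exact hζZ)
      · exfalso
        apply hq
        rw [hM, mem_centralizer_iff]
        have hqu : q * u = u * q := by rw [mul_inv_eq_iff_eq_mul] at h; exact h
        intro x hx
        rcases hUelt x hx with h | h | h | h <;> rw [h]
        · simp
        · exact (mem_center_iff.mp hζZ q).symm
        · exact hqu.symm
        · rw [mul_assoc, ← hqu, ← mul_assoc, ← mul_assoc, ← mem_center_iff.mp hζZ q]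
      · exact h
    have hcos : ∀ q r, q ∉ M → r ∉ M → q⁻¹ * r ∈ M := by
      intro q r hq hr
      have h1 := hinvert q hq
      have h2 := hinvert r hr
      have h3 : (q⁻¹ * r) * u = u * (q⁻¹ * r) := by
        have h4 : q * u * q⁻¹ = r * u * r⁻¹ := h1.trans h2.symm
        calc (q⁻¹ * r) * u = q⁻¹ * (r * u * r⁻¹) * r := by group
          _ = q⁻¹ * (q * u * q⁻¹) * r := by rw [h4]
          _ = u * (q⁻¹ * r) := by group
      rw [hM, mem_centralizer_iff]
      intro x hx
      generalize q⁻¹ * r = s at *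
      rcases hUelt x hx with h | h | h | h <;> rw [h]
      · simp
      · exact (mem_center_iff.mp hζZ _).symm
      · exact h3.symm
      · rw [mul_assoc, ← h3, ← mul_assoc, ← mul_assoc, ← mem_center_iff.mp hζZ s]
    have hMtop : M ≠ ⊤ := by
      intro h
      apply huZ
      rw [mem_center_iff]
      intro q
      have hq : q ∈ M := by rw [h]; trivial
      rw [hM, mem_centralizer_iff] at hq
      exact (hq u huU).symm
    -- induction hypothesis for M
    have hMcard : Nat.card M < n := by
      rw [← hn]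
      have h4 : Nat.card M ≤ Nat.card Q := Nat.card_le_card_of_injective _ M.subtype_injective
      rcases lt_or_eq_of_le h4 with h | h
      · exact h
      · exact absurd ((Subgroup.card_eq_iff_eq_top M).mp h) hMtop
    obtain ⟨ζM, hζM⟩ := ih _ hMcard M rfl (hQ.char M)
    -- centre of M is U
    have hZM : ∀ x ∈ M, (∀ y ∈ M, x * y = y * x) → x ∈ U := by
      intro x hx hxy
      have h1 : ((center M).map M.subtype).Characteristic := char_map_subtype M (center M)
      have h2 : IsMulCommutative ((center M).map M.subtype) := isMulCommutative_map M _ inferInstance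
      have h3 : IsCyclic ((center M).map M.subtype) := hQ.cyc _ h1 h2
      have h4 : U ≤ (center M).map M.subtype := by
        intro y hy
        refine ⟨⟨y, hUM hy⟩, ?_, rfl⟩
        rw [SetLike.mem_coe, mem_center_iff]
        rintro ⟨w, hw⟩
        apply Subtype.ext
        exact (mem_centralizer_iff.mp hw y hy).symm
      have h5 : Nat.card ((center M).map M.subtype) ∣ 4 := by
        obtain ⟨g, hg⟩ := h3.exists_generator
        have h6 : Nat.card ((center M).map M.subtype) = orderOf g := by
          rw [← Nat.card_zpowers]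
          exact (Nat.card_congr (Equiv.subtypeUnivEquiv hg)).symm
        rw [h6]
        exact orderOf_dvd_of_pow_eq_one (Subtype.ext (hQ.exp g))
      have h7 : U = (center M).map M.subtype := by
        apply Subgroup.eq_of_le_of_card_ge h4
        rw [hUcard]
        exact Nat.le_of_dvd (by norm_num) h5
      rw [h7]
      refine ⟨⟨x, hx⟩, ?_, rfl⟩
      rw [SetLike.mem_coe, mem_center_iff]
      rintro ⟨w, hw⟩
      apply Subtype.ext
      exact (hxy w hw).symm
    -- commutators of M are in {1,ζ}
    have hcmM : ∀ a ∈ M, ∀ b ∈ M, cm a b = 1 ∨ cm a b = ζ := by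
      intro a ha b hb
      have h1 : ((ζM : M) : Q) = 1 ∨ ((ζM : M) : Q) = ζ := by
        apply hUζ
        · apply hZM _ ζM.2
          intro y hy
          exact congrArg Subtype.val (hζM.2.1 ⟨y, hy⟩)
        · exact congrArg Subtype.val hζM.1
      rcases hζM.2.2 ⟨a, ha⟩ ⟨b, hb⟩ with h | h
      · left; exact congrArg Subtype.val h
      · have h2 : cm a b = ((ζM : M) : Q) := congrArg Subtype.val h
        rw [h2]; exact h1
    have hζc : ∀ q, ζ * q = q * ζ := fun q => (mem_center_iff.mp hζZ q).symm
    -- Small structure on M with ζ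
    have hS : Small M ⟨ζ, hUM hζU⟩ := by
      refine ⟨Subtype.ext hζ2, fun q => Subtype.ext (hζc q), ?_⟩
      rintro ⟨a, ha⟩ ⟨b, hb⟩
      rcases hcmM a ha b hb with h | h
      · left; exact Subtype.ext h
      · right; exact Subtype.ext h
    have smallcentral : ∀ c, (c = 1 ∨ c = ζ) → ∀ q, c * q = q * c := by
      rintro c (rfl | rfl) q
      · simp
      · exact hζc q
    have sqM : ∀ x ∈ M, x * x = 1 ∨ x * x = ζ := by
      intro x hx
      apply hUζ
      · apply hZM _ (M.mul_mem hx hx)
        intro y hy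
        exact congrArg Subtype.val (hS.sq_central ⟨x, hx⟩ ⟨y, hy⟩)
      · rw [pow4]; exact hQ.exp x
    have hconjM : ∀ q x, x ∈ M → q * x * q⁻¹ ∈ M := fun q x hx => hMn.conj_mem x hx q
    have sqconj : ∀ q x, x ∈ M → (q * x * q⁻¹) * (q * x * q⁻¹) = x * x := by
      intro q x hx
      have h1 := smallcentral _ (sqM x hx) q
      calc (q * x * q⁻¹) * (q * x * q⁻¹) = (q * (x * x)) * q⁻¹ := by group
        _ = x * x := by rw [← h1]; group
    have cmconj : ∀ q a b, a ∈ M → b ∈ M → cm (q * a * q⁻¹) (q * b * q⁻¹) = cm a b := by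
      intro q a b ha hb
      have h1 := smallcentral _ (hcmM a ha b hb) q
      calc cm (q * a * q⁻¹) (q * b * q⁻¹) = (q * cm a b) * q⁻¹ := by unfold cm; group
        _ = cm a b := by rw [← h1]; group
    have mulr : ∀ a b c, a ∈ M → b ∈ M → c ∈ M → cm a (b * c) = cm a b * cm a c := by
      intro a b c ha hb hc
      exact congrArg Subtype.val (hS.mul_right ⟨a, ha⟩ ⟨b, hb⟩ ⟨c, hc⟩)
    have mull : ∀ a b c, a ∈ M → b ∈ M → c ∈ M → cm (b * c) a = cm b a * cm c a := by
      intro a b c ha hb hc
      exact congrArg Subtype.val (hS.mul_left ⟨a, ha⟩ ⟨b, hb⟩ ⟨c, hc⟩)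
    have symmM : ∀ a b, a ∈ M → b ∈ M → cm a b = cm b a := by
      intro a b ha hb
      exact congrArg Subtype.val (hS.symm ⟨a, ha⟩ ⟨b, hb⟩)
    have sqcm : ∀ a b, a ∈ M → b ∈ M → cm a b * cm a b = 1 := by
      intro a b ha hb
      exact congrArg Subtype.val (hS.sq ⟨a, ha⟩ ⟨b, hb⟩)
    have invl : ∀ a b, a ∈ M → b ∈ M → cm a⁻¹ b = cm a b := by
      intro a b ha hb
      exact congrArg Subtype.val (hS.inv_left ⟨a, ha⟩ ⟨b, hb⟩)
    have invr : ∀ a b, a ∈ M → b ∈ M → cm a b⁻¹ = cm a b := by
      intro a b ha hb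
      rw [symmM a _ ha (M.inv_mem hb), invl b a hb ha, symmM b a hb ha]
    have cmc : ∀ a b q, a ∈ M → b ∈ M → cm a b * q = q * cm a b :=
      fun a b q ha hb => smallcentral _ (hcmM a ha b hb) q
    have sqmul : ∀ a b, a ∈ M → b ∈ M → (a * b) * (a * b) = cm b a * ((a * a) * (b * b)) := by
      intro a b ha hb
      have h1 := cmc b a a hb ha
      calc (a * b) * (a * b) = (a * cm b a) * (a * b * b) := by unfold cm; group
        _ = (cm b a * a) * (a * b * b) := by rw [← h1]
        _ = _ := by simp only [mul_assoc]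
    -- key isotropy
    have key1 : ∀ q, q ∉ M → ∀ x ∈ M, cm x (q * x * q⁻¹) = 1 := by
      intro q hq x hx
      have hq' : q⁻¹ ∉ M := fun h => hq (by simpa using M.inv_mem h)
      have hm : q * q ∈ M := by simpa using hcos _ _ hq' hq
      set m := q * q with hmdef
      set X := q * x * q⁻¹ with hX
      have hXM : X ∈ M := hconjM q x hx
      have hmx : m * x ∈ M := M.mul_mem hm hx
      have h1 : (X * (m * x)) * (X * (m * x)) = 1 := by
        have h2 : X * (m * x) = (q * x) * (q * x) := by rw [hX, hmdef]; group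
        rw [h2, pow4]; exact hQ.exp _
      rw [sqmul X (m * x) hXM hmx, sqmul m x hm hx, sqconj q x hx, mull X m x hXM hm hx] at h1
      have h3 : m * m = 1 := by rw [hmdef, pow4]; exact hQ.exp q
      rw [h3, one_mul] at h1
      have h4 : (x * x) * (cm x m * (x * x)) = cm x m := by
        rw [← mul_assoc, ← cmc x m (x * x) hx hm, mul_assoc, pow4, hQ.exp, mul_one]
      rw [h4] at h1
      have h5 : cm m X = cm m x := by
        have h6 := cmconj q m x hm hx
        have h7 : q * m * q⁻¹ = m := by rw [hmdef]; group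
        rw [h7] at h6
        exact h6
      rw [h5, symmM m x hm hx] at h1
      have h8 : cm x m * cm x X * cm x m = cm x X := by
        rw [cmc x m (cm x X) hx hm, mul_assoc, sqcm x m hx hm, mul_one]
      rw [h8] at h1
      exact h1
    have key2 : ∀ q, q ∉ M → ∀ v ∈ M, ∀ w ∈ M, cm v (q * w * q⁻¹) = cm w (q * v * q⁻¹) := by
      intro q hq v hv w hw
      have h1 := key1 q hq (v * w) (M.mul_mem hv hw)
      have hV := hconjM q v hv
      have hW := hconjM q w hw
      have h2 : q * (v * w) * q⁻¹ = (q * v * q⁻¹) * (q * w * q⁻¹) := by group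
      rw [h2, mulr _ _ _ (M.mul_mem hv hw) hV hW, mull _ _ _ hV hv hw, mull _ _ _ hW hv hw, key1 q hq v hv,
        key1 q hq w hw, one_mul, mul_one] at h1
      have h3 := sqcm w (q * v * q⁻¹) hw hV
      exact (mul_left_cancel (h1.trans h3.symm))
    have key3 : ∀ q, q ∉ M → ∀ v ∈ M, ∀ w ∈ M, cm (cm v q) (cm w q) = 1 := by
      intro q hq v hv w hw
      have hV := hconjM q v hv
      have hW := hconjM q w hw
      have e1 : cm v q = v * (q * v * q⁻¹)⁻¹ := by unfold cm; group
      have e2 : cm w q = w * (q * w * q⁻¹)⁻¹ := by unfold cm; group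
      rw [e1, e2]
      rw [mull _ _ _ (M.mul_mem hw (M.inv_mem hW)) hv (M.inv_mem hV), invl _ _ hV (M.mul_mem hw (M.inv_mem hW)),
        mulr _ _ _ hv hw (M.inv_mem hW), mulr _ _ _ hV hw (M.inv_mem hW), invr _ _ hv hW, invr _ _ hV hW,
        cmconj q v w hv hw, symmM _ w hV hw, key2 q hq v hv w hw]
      have h1 := cmc v w (cm w (q * v * q⁻¹)) hv hw
      calc cm v w * cm w (q * v * q⁻¹) * (cm w (q * v * q⁻¹) * cm v w)
          = cm v w * (cm w (q * v * q⁻¹) * cm w (q * v * q⁻¹)) * cm v w := by simp only [mul_assoc]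
        _ = 1 := by rw [sqcm w _ hw hV, mul_one, sqcm v w hv hw]
    -- [M, Q] is abelian
    have hcommMQ : ∀ v ∈ M, ∀ w ∈ M, ∀ q r, cm v q * cm w r = cm w r * cm v q := by
      intro v hv w hw q r
      by_cases hq : q ∈ M
      · exact cmc v q _ hv hq
      by_cases hr : r ∈ M
      · exact (cmc w r _ hw hr).symm
      have hm := hcos q r hq hr
      set m := q⁻¹ * r with hmdef
      have hrq : r = q * m := by rw [hmdef]; group
      have h1 : cm w r = cm m w⁻¹ * cm w q := by
        have h2 := cmc m w⁻¹ (w * q) hm (M.inv_mem hw)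
        rw [hrq]
        calc cm w (q * m) = (w * q * cm m w⁻¹) * (w⁻¹ * q⁻¹) := by unfold cm; group
          _ = (cm m w⁻¹ * (w * q)) * (w⁻¹ * q⁻¹) := by rw [h2]
          _ = cm m w⁻¹ * cm w q := by simp only [cm, mul_assoc]
      rw [h1]
      have h3 := cm_eq_one.mp (key3 q hq v hv w hw)
      have h4 := cmc m w⁻¹ (cm v q) hm (M.inv_mem hw)
      calc cm v q * (cm m w⁻¹ * cm w q) = (cm v q * cm m w⁻¹) * cm w q := by simp only [mul_assoc]
        _ = (cm m w⁻¹ * cm v q) * cm w q := by rw [h4]
        _ = cm m w⁻¹ * (cm v q * cm w q) := by simp only [mul_assoc]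
        _ = cm m w⁻¹ * (cm w q * cm v q) := by rw [h3]
        _ = _ := by simp only [mul_assoc]
    set E := ⁅M, (⊤ : Subgroup Q)⁆ with hE
    have hEchar : E.Characteristic := inferInstance
    have hEM : E ≤ M := by
      rw [hE, Subgroup.commutator_le]
      intro v hv q _
      have h1 : cm v q = v * (q * v⁻¹ * q⁻¹) := by unfold cm; group
      change cm v q ∈ M
      rw [h1]
      exact M.mul_mem hv (hconjM q _ (M.inv_mem hv))
    have hEE : E ≤ centralizer (E : Set Q) := by
      rw [hE, Subgroup.commutator_le]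
      intro v hv q _
      rw [mem_centralizer_iff]
      intro y hy
      have h1 : E ≤ centralizer ({cm v q} : Set Q) := by
        rw [hE, Subgroup.commutator_le]
        intro w hw r _
        rw [mem_centralizer_singleton_iff]
        exact hcommMQ w hw v hv r q
      exact mem_centralizer_singleton_iff.mp (h1 hy)
    set N := E ⊔ U with hN
    have hNchar : N.Characteristic := by
      rw [characteristic_iff_map_le]
      intro φ
      rw [hN, Subgroup.map_sup]
      exact sup_le_sup (characteristic_iff_map_le.mp hEchar φ) (characteristic_iff_map_le.mp hUchar φ)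
    have hUE : U ≤ centralizer (E : Set Q) := by
      intro x hx
      rw [mem_centralizer_iff]
      intro y hy
      exact (mem_centralizer_iff.mp (hEM hy) x hx).symm
    have hNN : N ≤ centralizer (N : Set Q) := by
      have h1 : N ≤ centralizer (E : Set Q) := sup_le hEE hUE
      have h2 : N ≤ centralizer (U : Set Q) := sup_le hEM hUM
      rw [Subgroup.le_centralizer_iff]
      exact sup_le (Subgroup.le_centralizer_iff.mp h1) (Subgroup.le_centralizer_iff.mp h2)
    have hNcomm : IsMulCommutative N := by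
      refine ⟨⟨?_⟩⟩
      rintro ⟨x, hx⟩ ⟨y, hy⟩
      apply Subtype.ext
      exact mem_centralizer_iff.mp (hNN hy) x hx
    have hNU : U = N := by
      apply Subgroup.eq_of_le_of_card_ge le_sup_right
      rw [hUcard]
      obtain ⟨g, hg⟩ := (hQ.cyc N hNchar hNcomm).exists_generator
      have h6 : Nat.card N = orderOf g := by
        rw [← Nat.card_zpowers]
        exact (Nat.card_congr (Equiv.subtypeUnivEquiv hg)).symm
      rw [h6]
      exact Nat.le_of_dvd (by norm_num) (orderOf_dvd_of_pow_eq_one (Subtype.ext (hQ.exp g)))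
    have hEU : E ≤ U := by rw [hNU]; exact le_sup_left
    have hcmMQ : ∀ v ∈ M, ∀ q, cm v q = 1 ∨ cm v q = ζ := by
      intro v hv q
      have hV := hconjM q v hv
      have ht : cm v q ∈ U := hEU (Subgroup.commutator_mem_commutator hv (Subgroup.mem_top q))
      apply hUζ _ ht
      set t := cm v q with htdef
      have h1 : v = t * (q * v * q⁻¹) := by rw [htdef]; unfold cm; group
      have h2 : t * (q * v * q⁻¹) = (q * v * q⁻¹) * t := mem_centralizer_iff.mp hV t ht
      have h3 : v * v = (t * t) * ((q * v * q⁻¹) * (q * v * q⁻¹)) := by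
        calc v * v = (t * (q * v * q⁻¹)) * (t * (q * v * q⁻¹)) := by rw [← h1]
          _ = t * ((q * v * q⁻¹) * t) * (q * v * q⁻¹) := by simp only [mul_assoc]
          _ = t * (t * (q * v * q⁻¹)) * (q * v * q⁻¹) := by rw [h2]
          _ = _ := by simp only [mul_assoc]
      rw [sqconj q v hv] at h3
      have h4 : 1 * (v * v) = (t * t) * (v * v) := by rw [one_mul]; exact h3
      exact (mul_right_cancel h4).symm
    refine ⟨ζ, hζ2, hζc, ?_⟩
    intro a b
    by_cases ha : a ∈ M
    · exact hcmMQ a ha b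
    by_cases hb : b ∈ M
    · have h1 : cm a b = (cm b a)⁻¹ := by unfold cm; group
      rcases hcmMQ b hb a with h | h <;> rw [h1, h]
      · left; simp
      · right; exact inv_eq_of_mul_eq_one_left hζ2
    · have hm := hcos a b ha hb
      set m := a⁻¹ * b with hmdef
      have hbm : b = a * m := by rw [hmdef]; group
      have h1 : cm a b = a * (cm m a)⁻¹ * a⁻¹ := by rw [hbm]; unfold cm; group
      rcases hcmMQ m hm a with h | h <;> rw [h1, h]
      · left; group
      · right
        rw [inv_eq_of_mul_eq_one_left hζ2, ← hζc a]; group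

end H35.SympExp4
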