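import Mathlib
import Cfsg.Prelude.Def_Transfer

set_option autoImplicit false
open Cfsg

namespace H35.Extraspecial2

/-- In a finite group `Q` with `Z(Q) = {1, ζ}` of order 2 and all commutators central, every subgroup `H ≥ Z(Q)` of
index 2 is centralized by some non-central element. -/
theorem exists_noncentral {Q : Type*} [Group Q] [Finite Q] (ζ : Q) (hζ1 : ζ ≠ 1)
    (hζ : ∀ q, ζ * q = q * ζ) (hζc : ∀ c : Q, (∀ q, c * q = q * c) → c = 1 ∨ c = ζ)
    (hcomm : ∀ a b : Q, a * b * a⁻¹ * b⁻¹ = 1 ∨ a * b * a⁻¹ * b⁻¹ = ζ)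
    (H : Subgroup Q) (hZH : ζ ∈ H) (hH : H.index = 2) :
    ∃ x : Q, ¬ (∀ q, x * q = q * x) ∧ ∀ h ∈ H, x * h = h * x := by
  classical
  have := Fintype.ofFinite Q
  have hζ2 : ζ * ζ = 1 := by
    rcases hζc (ζ * ζ) (fun q => by rw [mul_assoc, hζ, ← mul_assoc, hζ, mul_assoc]) with h | h
    · exact h
    · exact absurd (mul_left_cancel (h.trans (mul_one ζ).symm)) hζ1
  -- sign characters
  have hmul : ∀ a q r : Q, a * (q * r) * a⁻¹ * (q * r)⁻¹ = (a * q * a⁻¹ * q⁻¹) * (a * r * a⁻¹ * r⁻¹) := by
    intro a q r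
    have h1 : ∀ c : Q, (c = 1 ∨ c = ζ) → ∀ q : Q, c * q = q * c := by
      rintro c (rfl | rfl) q
      · simp
      · exact hζ q
    have h2 := h1 _ (hcomm a r) q
    calc a * (q * r) * a⁻¹ * (q * r)⁻¹ = (a * q * a⁻¹) * ((a * r * a⁻¹ * r⁻¹) * q⁻¹) := by group
      _ = (a * q * a⁻¹) * (q⁻¹ * (a * r * a⁻¹ * r⁻¹)) := by rw [h1 _ (hcomm a r) q⁻¹]
      _ = _ := by group
  let s : Q → Q → ℤ := fun a q => if a * q * a⁻¹ * q⁻¹ = 1 then 1 else -1
  have s1 : ∀ a q, a * q * a⁻¹ * q⁻¹ = 1 → s a q = 1 := fun a q h => if_pos h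
  have s2 : ∀ a q, a * q * a⁻¹ * q⁻¹ = ζ → s a q = -1 := fun a q h => if_neg (by rw [h]; exact hζ1)
  have hs : ∀ a q r, s a (q * r) = s a q * s a r := by
    intro a q r
    have hm := hmul a q r
    rcases hcomm a q with h1 | h1 <;> rcases hcomm a r with h2 | h2 <;> rw [h1, h2] at hm
    · rw [s1 _ _ h1, s1 _ _ h2, s1 _ _ (by rw [hm, one_mul]), one_mul]
    · rw [s1 _ _ h1, s2 _ _ h2, s2 _ _ (by rw [hm, one_mul]), one_mul]
    · rw [s2 _ _ h1, s1 _ _ h2, s2 _ _ (by rw [hm, mul_one]), mul_one]
    · rw [s2 _ _ h1, s2 _ _ h2, s1 _ _ (by rw [hm, hζ2])]; norm_num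
  have comm_iff : ∀ a b : Q, a * b * a⁻¹ * b⁻¹ = 1 ↔ a * b = b * a := by
    intro a b
    rw [mul_inv_eq_one, mul_inv_eq_iff_eq_mul]
  have hsymm : ∀ a q, s a q = s q a := by
    intro a q
    have : (a * q * a⁻¹ * q⁻¹ = 1) = (q * a * q⁻¹ * a⁻¹ = 1) := by
      rw [eq_iff_iff, comm_iff, comm_iff, eq_comm]
    simp only [s, this]
  let S : Q → (Q →* ℤ) := fun a =>
    { toFun := s a
      map_one' := s1 _ _ (by group)
      map_mul' := hs a }
  have hSne : ∀ a q, a * q ≠ q * a → S a ≠ 1 := by
    intro a q h h1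
    have h2 : s a q = 1 := by
      exact congrArg (fun f : Q →* ℤ => f q) h1
    rcases hcomm a q with h3 | h3
    · exact h ((comm_iff a q).mp h3)
    · rw [s2 _ _ h3] at h2; norm_num at h2
  by_contra hcon
  push Not at hcon
  -- double count
  have e1 : ∑ a : H, ∑ q : Q, s a q = 2 * Fintype.card Q := by
    have h1 : ∀ a : H, ∑ q : Q, s a q = if (a : Q) = 1 ∨ (a : Q) = ζ then (Fintype.card Q : ℤ) else 0 := by
      intro a
      split_ifs with h
      · have : ∀ q, s a q = 1 := by
          intro q
          apply s1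
          rw [comm_iff]
          rcases h with h | h
          · rw [h]; simp
          · rw [h]; exact hζ q
        simp [this]
      · have h2 : ∃ q, (a : Q) * q ≠ q * a := by
          by_contra h3
          push Not at h3
          exact h (hζc a h3)
        obtain ⟨q, hq⟩ := h2
        exact sum_hom_units_eq_zero (S a) (hSne a q hq)
    simp only [h1]
    rw [Finset.sum_ite, Finset.sum_const_zero, add_zero, Finset.sum_const, nsmul_eq_mul]
    congr 1
    have h4 : (Finset.univ.filter (fun a : H => (a : Q) = 1 ∨ (a : Q) = ζ)) = {1, ⟨ζ, hZH⟩} := by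
      ext a
      simp only [Finset.mem_filter, Finset.mem_univ, true_and, Finset.mem_insert, Finset.mem_singleton]
      constructor
      · rintro (h | h)
        · left; exact Subtype.ext h
        · right; exact Subtype.ext h
      · rintro (h | h)
        · left; rw [h]; rfl
        · right; rw [h]
    rw [h4, Finset.card_insert_of_notMem, Finset.card_singleton]
    · norm_num
    · rw [Finset.mem_singleton]
      intro h
      exact hζ1 (congrArg Subtype.val h).symm
  have e2 : ∑ q : Q, ∑ a : H, s a q = 2 * Fintype.card H := by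
    have h1 : ∀ q : Q, ∑ a : H, s a q = if q = 1 ∨ q = ζ then (Fintype.card H : ℤ) else 0 := by
      intro q
      split_ifs with h
      · have : ∀ a : H, s a q = 1 := by
          intro a
          rw [hsymm]
          apply s1
          rw [comm_iff]
          rcases h with h | h
          · rw [h]; simp
          · rw [h]; exact hζ a
        simp [this]
      · have h2 : ∃ r, q * r ≠ r * q := by
          by_contra h3
          push Not at h3
          exact h (hζc q h3)
        obtain ⟨a, ha, hne⟩ := hcon q h2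
        have h3 : (S q).comp H.subtype ≠ 1 := by
          intro h4
          have h5 : s q a = 1 := by
            exact congrArg (fun f : H →* ℤ => f ⟨a, ha⟩) h4
          rcases hcomm q a with h3 | h3
          · exact hne ((comm_iff q a).mp h3)
          · rw [s2 _ _ h3] at h5; norm_num at h5
        have h6 := sum_hom_units_eq_zero ((S q).comp H.subtype) h3
        rw [← h6]
        refine Finset.sum_congr rfl fun a _ => ?_
        exact hsymm a q
    simp only [h1]
    rw [Finset.sum_ite, Finset.sum_const_zero, add_zero, Finset.sum_const, nsmul_eq_mul]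
    congr 1
    have h4 : (Finset.univ.filter (fun a : Q => (a : Q) = 1 ∨ (a : Q) = ζ)) = {1, ζ} := by
      ext a
      simp
    rw [h4, Finset.card_insert_of_notMem, Finset.card_singleton]
    · norm_num
    · rw [Finset.mem_singleton]
      exact fun h => hζ1 h.symm
  rw [Finset.sum_comm, e2] at e1
  have h7 := H.card_mul_index
  rw [hH, Nat.card_eq_fintype_card, Nat.card_eq_fintype_card] at h7
  have h8 : 0 < Fintype.card H := Fintype.card_pos
  have h9 : (Fintype.card Q : ℤ) = Fintype.card H := by linarith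
  have h10 : Fintype.card Q = Fintype.card H := by exact_mod_cast h9
  omega

end H35.Extraspecial2
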