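import Mathlib
import Cfsg.Agent.Lib.H35.StemStep
import Cfsg.Agent.Lib.H35.NXHeA
import Cfsg.Agent.Lib.H35.HeMain
import Cfsg.Agent.Lib.H35.TCMHeA
import Cfsg.Agent.Lib.H35.TCMHeB
import Cfsg.Agent.Lib.H35.TCMHeC

set_option autoImplicit false
set_option maxRecDepth 100000
set_option linter.all false
set_option Elab.async false
namespace H35.MulHeA
open Subgroup H35.Stem H35.TC H35.Net H35.HeMain H35.NXHeA
abbrev X := Fin 8
/-- exponents of the letters -/
def nn : X → ℕ := ![17, 3, 3, 3, 5, 3, 5, 3]
/-- words of the letters -/
def d : X → List LA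
  | 0 => [.a, .b, .d, .c, .d, .g, .d, .c, .b, .d, .c, .e, .d, .c, .f, .d, .g, .b, .c, .d, .f, .e, .d, .g, .b, .c, .d, .f, .b]
  | 1 => [.b, .a, .c, .b, .d, .e, .f, .d, .c, .b, .d, .c, .f, .d, .c, .d, .e, .b, .c, .d, .f, .e, .d, .c, .a, .b, .a]
  | 2 => [.b, .d, .c, .g, .d, .f, .g, .d, .c, .b, .d, .c, .e, .d, .c, .d, .b, .c, .d, .e, .c, .d, .f, .e, .d, .b]
  | 3 => [.e, .f, .d, .c, .b, .d, .e, .d, .c, .d, .g, .d, .c, .d, .e, .b, .c, .d, .f, .e]
  | 4 => [.c, .e, .d, .c, .b, .d, .c, .b, .f, .d, .c, .e, .d, .c, .d, .b, .c, .d, .c, .d, .b, .c, .d, .c, .b, .a]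
  | 5 => [.a, .b, .c, .d, .c, .b, .g, .d, .c, .d, .c, .b, .e, .d, .c, .d, .e, .c, .b]
  | 6 => [.d, .f, .d, .c, .b, .d, .c, .e, .d, .c, .b, .d, .c, .e, .d, .c, .d, .g, .b, .c, .d, .c, .d, .b, .c, .a]
  | 7 => [.c, .b, .d, .c, .b, .g, .d, .c, .b, .d, .c, .b, .f, .d, .c, .d, .b, .c, .d, .b, .c, .d, .f, .e, .b, .a]
/-- the letters -/
noncomputable def g (x : X) : Cfsg.Spor.He := ((d x).map gP).prod
theorem hbp' : ∀ x, BP (2 ^ 12) (NHe.net x) (φ (gP x)) := by
  intro x
  rw [hφ]
  exact NHe.hbp x
theorem ln : LetNet 12 φ g netX := letNet_of hbp' bpx invx (by intro x; fin_cases x <;> decide +kernel)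
theorem hinj : Function.Injective φ := card_inj.2
noncomputable def ck (w : W X) (m : ℕ) : Bool := chkW netX 12 w m 0 12
theorem tr (w : W X) (m : ℕ) (h : ck w m = true) : (ev g w) ^ m = 1 := ln.pow_one hinj h
theorem tr1 {w : W X} (h : ck w 1 = true) : ev g w = 1 := ln.ev_one hinj h
theorem hord (x : X) : g x ^ nn x = 1 := by
  have h : ∀ x, ck [(x, true)] (nn x) = true := by intro x; fin_cases x <;> decide +kernel
  have h1 := tr _ _ (h x)
  change (g x * 1) ^ nn x = 1 at h1
  rwa [mul_one] at h1
theorem hn : ∀ x, Nat.Coprime (nn x) 2 := by decide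
/-- letters of level A -/
def SA : X → Bool := ![false, false, false, true, true, true, true, true]

/-- lower letters of level A -/
def TA : X → Bool := ![false, false, false, true, true, true, true, false]

def wdA : TCMHeA.Lt → W X
  | .b => [(3, true)]
  | .bi => [(3, false)]
  | .e => [(4, true)]
  | .ei => [(4, false)]
  | .c => [(5, true)]
  | .ci => [(5, false)]
  | .f => [(6, true)]
  | .fi => [(6, false)]
  | .d => [(7, true)]
  | .di => [(7, false)]

def rulesA_0 : List (Rule X) := [
  .conj [(3, false), (6, false), (7, true), (4, false), (3, false), (7, false), (6, true), (6, true), (3, false)] [(7, true)] [(7, false)] 3,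
  .ord 3,
  .ord 5,
  .ord 7,
  .conj [(7, true)] [(5, false)] [(3, false)] 3,
  .conj [(7, true)] [(6, false)] [(4, false)] 5]

def rulesA_1 : List (Rule X) := [
  .ord 4,
  .ord 6,
  .conj [(7, true)] [(5, false)] [(6, true), (3, true), (4, false), (3, false), (6, true), (4, true), (6, true), (4, true), (3, false), (6, false)] 3,
  .low [(3, true), (4, false), (6, false), (4, false), (5, true), (3, false), (6, false), (3, true), (5, true)],
  .low [(3, true), (4, true), (3, true), (6, true), (5, true), (4, false), (6, true), (3, true), (6, true), (5, true)],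
  .low [(3, true), (5, false), (6, false), (3, true), (6, false), (4, false), (4, false), (6, true), (4, true), (5, true)]]

def rulesA_2 : List (Rule X) := [
  .low [(3, true), (4, true), (4, true), (6, false), (6, false), (5, false), (6, false), (5, true), (3, false), (4, true)],
  .low [(4, true), (5, true), (6, false), (5, false), (6, true), (5, true), (4, true), (6, false), (6, false), (5, true)],
  .low [(3, true), (4, true), (3, false), (4, false), (3, true), (4, true), (6, false), (4, false), (6, true), (5, false)],
  .low [(3, true), (4, true), (3, false), (4, true), (4, true), (3, true), (4, true), (3, false), (4, true), (4, true)],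
  .low [(5, true), (6, true), (6, true), (5, false), (6, true), (5, true), (6, true), (6, true), (5, false), (6, true)],
  .low [(3, true), (5, false), (6, true), (5, true), (3, false), (5, true), (4, true), (6, true), (5, true), (4, true)]]

def rulesA_3 : List (Rule X) := [
  .low [(3, true), (4, true), (6, false), (3, true), (5, false), (4, true), (3, false), (6, true), (5, false), (4, true)],
  .low [(4, true), (4, true), (6, true), (5, false), (6, false), (5, false), (4, false), (5, true), (6, false), (5, true)],
  .low [(3, true), (4, false), (3, true), (4, false), (6, true), (3, true), (4, false), (3, true), (4, false), (6, true)],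
  .low [(3, true), (4, true), (4, true), (3, false), (4, true), (3, true), (4, true), (4, true), (3, false), (4, true)]]

def rulesA : List (Rule X) := rulesA_0 ++ rulesA_1 ++ rulesA_2 ++ rulesA_3

def cenA : TCMHeA.Lt → Bool
  | _ => false

def CA : CP X TCMHeA.Lt where
  iv := fun _ => false
  wd := wdA
  cen := cenA
  q := 2
  exact := rulesA.map fun r => red (fun _ => false) (r.word nn)

theorem tkA_0 : (rulesA_0.all (Rule.chk nn ck)) = true := by decide +kernel

theorem tkA_1 : (rulesA_1.all (Rule.chk nn ck)) = true := by decide +kernel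

theorem tkA_2 : (rulesA_2.all (Rule.chk nn ck)) = true := by decide +kernel

theorem tkA_3 : (rulesA_3.all (Rule.chk nn ck)) = true := by decide +kernel

theorem htA : ∀ r ∈ rulesA, ∀ w ∈ r.needs nn, ev g w = 1 := by
  intro r hr
  refine Rule.needs_of_chk tr ?_
  simp only [rulesA, List.mem_append] at hr
  rcases hr with ((hr | hr) | hr) | hr
  · exact List.all_eq_true.1 tkA_0 r hr
  · exact List.all_eq_true.1 tkA_1 r hr
  · exact List.all_eq_true.1 tkA_2 r hr
  · exact List.all_eq_true.1 tkA_3 r hr

theorem hcA : ∀ z, CA.cen z = true → ev g (CA.wd z) = 1 := by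
  intro z hz
  refine tr1 ?_
  cases z <;> first | (exact absurd hz (by decide)) | decide +kernel

theorem lvA {Γ : Type} [Group Γ] [Finite Γ] {σ : Γ →* Cfsg.Spor.He} {f : X → Γ} (h : Lifts σ 2 nn g f) (hi : Inj g f TA) :
    Nat.card (Kl f SA) ≤ 4116 * Nat.card (Kl f TA) := by
  have hh : CA.Holds f := holds h hi rfl (fun _ h => absurd (show false = true from h) (by decide)) rfl (by decide +kernel) htA hcA
  obtain ⟨hinv, hrel⟩ := CP.relOK hh (inv := TCMHeA.inv) (mm := TCMHeA.mm) (ex := TCMHeA.extra) (by intro x; cases x <;> decide +kernel)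
    (by intro x y; cases x <;> cases y <;> decide +kernel) (by decide +kernel)
  exact level (subs := TCMHeA.subs) (fun H hH => TCMHeA.main hinv hrel.1 hrel.2 hH) (by decide +kernel) (by
    intro x hx
    fin_cases x
    · exact absurd hx (by decide)
    · exact absurd hx (by decide)
    · exact absurd hx (by decide)
    · exact ⟨.b, rfl⟩
    · exact ⟨.e, rfl⟩
    · exact ⟨.c, rfl⟩
    · exact ⟨.f, rfl⟩
    · exact ⟨.d, rfl⟩)
/-- letters of level B -/
def SB : X → Bool := ![true, true, true, false, false, false, false, false]

/-- lower letters of level B -/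
def TB : X → Bool := ![true, true, false, false, false, false, false, false]

def wdB : TCMHeB.Lt → W X
  | .a => [(0, true)]
  | .ai => [(0, false)]
  | .b => [(1, true)]
  | .bi => [(1, false)]
  | .c => [(2, true)]
  | .ci => [(2, false)]

def rulesB_0 : List (Rule X) := [
  .ord 2,
  .conj [(2, true)] [(1, false), (0, true), (1, false)] [(0, false), (0, false), (0, false), (1, false), (0, false), (0, false), (1, true)] 5,
  .conj [(2, false), (1, true), (0, false), (1, true)] [(2, false)] [(0, true), (0, true), (1, false), (0, false), (0, false)] 3,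
  .conj [(2, true), (0, false), (2, true)] [(1, true)] [(0, false), (0, false), (1, false), (0, true), (1, true), (0, false), (1, false), (0, false)] 3,
  .conj [(2, true), (0, false), (2, true)] [(1, false), (0, true), (0, true), (1, true), (0, true)] [(0, false), (0, false), (0, false), (0, false)] 17,
  .conj [(2, false), (0, true), (2, false)] [(0, true), (1, false), (0, true), (0, true), (1, true)] [(0, false), (0, false), (0, false), (0, false)] 17]

def rulesB_1 : List (Rule X) := [
  .conj [(2, false), (0, true), (2, false)] [(0, false), (0, false), (1, true), (0, false), (1, true)] [(0, false), (0, false), (0, false), (0, false)] 17,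
  .ord 1,
  .low [(0, true), (0, true), (1, true), (0, true), (1, false), (0, false), (0, false), (1, true), (0, false), (1, true), (0, true), (1, false), (0, true), (1, false)],
  .low [(0, true), (1, true), (0, true), (1, false), (0, true), (1, false), (0, true), (1, true), (0, false), (1, true), (0, false), (1, true), (0, false), (1, false), (0, false), (1, true)],
  .low [(0, true), (0, true), (1, true), (0, true), (0, true), (1, false), (0, true), (1, false), (0, true), (0, true), (1, true), (0, false), (1, true), (0, false), (0, false), (1, false)]]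

def rulesB : List (Rule X) := rulesB_0 ++ rulesB_1

def cenB : TCMHeB.Lt → Bool
  | _ => false

def CB : CP X TCMHeB.Lt where
  iv := fun _ => false
  wd := wdB
  cen := cenB
  q := 2
  exact := rulesB.map fun r => red (fun _ => false) (r.word nn)

theorem tkB_0 : (rulesB_0.all (Rule.chk nn ck)) = true := by decide +kernel

theorem tkB_1 : (rulesB_1.all (Rule.chk nn ck)) = true := by decide +kernel

theorem htB : ∀ r ∈ rulesB, ∀ w ∈ r.needs nn, ev g w = 1 := by
  intro r hr
  refine Rule.needs_of_chk tr ?_
  simp only [rulesB, List.mem_append] at hr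
  rcases hr with hr | hr
  · exact List.all_eq_true.1 tkB_0 r hr
  · exact List.all_eq_true.1 tkB_1 r hr

theorem hcB : ∀ z, CB.cen z = true → ev g (CB.wd z) = 1 := by
  intro z hz
  refine tr1 ?_
  cases z <;> first | (exact absurd hz (by decide)) | decide +kernel

theorem lvB {Γ : Type} [Group Γ] [Finite Γ] {σ : Γ →* Cfsg.Spor.He} {f : X → Γ} (h : Lifts σ 2 nn g f) (hi : Inj g f TB) :
    Nat.card (Kl f SB) ≤ 240 * Nat.card (Kl f TB) := by
  have hh : CB.Holds f := holds h hi rfl (fun _ h => absurd (show false = true from h) (by decide)) rfl (by decide +kernel) htB hcB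
  obtain ⟨hinv, hrel⟩ := CP.relOK hh (inv := TCMHeB.inv) (mm := TCMHeB.mm) (ex := TCMHeB.extra) (by intro x; cases x <;> decide +kernel)
    (by intro x y; cases x <;> cases y <;> decide +kernel) (by decide +kernel)
  exact level (subs := TCMHeB.subs) (fun H hH => TCMHeB.main hinv hrel.1 hrel.2 hH) (by decide +kernel) (by
    intro x hx
    fin_cases x
    · exact ⟨.a, rfl⟩
    · exact ⟨.b, rfl⟩
    · exact ⟨.c, rfl⟩
    · exact absurd hx (by decide)
    · exact absurd hx (by decide)
    · exact absurd hx (by decide)
    · exact absurd hx (by decide)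
    · exact absurd hx (by decide))
/-- letters of level C -/
def SC : X → Bool := ![true, true, false, false, false, false, false, false]

/-- lower letters of level C -/
def TC : X → Bool := ![true, false, false, false, false, false, false, false]

def wdC : TCMHeC.Lt → W X
  | .a => [(0, true)]
  | .ai => [(0, false)]
  | .b => [(1, true)]
  | .bi => [(1, false)]

def rulesC_0 : List (Rule X) := [
  .ord 1,
  .conj [(1, false), (0, false), (0, false), (1, true), (0, false), (1, true)] [(0, true)] [(0, false)] 17,
  .conj [(0, true), (1, true), (0, true), (1, false), (0, true), (1, false), (0, true)] [(1, true)] [(1, false)] 3,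
  .conj [(1, true), (0, true), (0, true), (1, false), (0, true), (1, false)] [(0, true), (0, true)] [(0, false), (0, false)] 17]

def rulesC : List (Rule X) := rulesC_0

def cenC : TCMHeC.Lt → Bool
  | _ => false

def CC : CP X TCMHeC.Lt where
  iv := fun _ => false
  wd := wdC
  cen := cenC
  q := 2
  exact := rulesC.map fun r => red (fun _ => false) (r.word nn)

theorem tkC_0 : (rulesC_0.all (Rule.chk nn ck)) = true := by decide +kernel

theorem htC : ∀ r ∈ rulesC, ∀ w ∈ r.needs nn, ev g w = 1 := by
  intro r hr
  exact Rule.needs_of_chk tr (List.all_eq_true.1 tkC_0 r hr)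

theorem hcC : ∀ z, CC.cen z = true → ev g (CC.wd z) = 1 := by
  intro z hz
  refine tr1 ?_
  cases z <;> first | (exact absurd hz (by decide)) | decide +kernel

theorem lvC {Γ : Type} [Group Γ] [Finite Γ] {σ : Γ →* Cfsg.Spor.He} {f : X → Γ} (h : Lifts σ 2 nn g f) (hi : Inj g f TC) :
    Nat.card (Kl f SC) ≤ 240 * Nat.card (Kl f TC) := by
  have hh : CC.Holds f := holds h hi rfl (fun _ h => absurd (show false = true from h) (by decide)) rfl (by decide +kernel) htC hcC
  obtain ⟨hinv, hrel⟩ := CP.relOK hh (inv := TCMHeC.inv) (mm := TCMHeC.mm) (ex := TCMHeC.extra) (by intro x; cases x <;> decide +kernel)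
    (by intro x y; cases x <;> cases y <;> decide +kernel) (by decide +kernel)
  exact level (subs := TCMHeC.subs) (fun H hH => TCMHeC.main hinv hrel.1 hrel.2 hH) (by decide +kernel) (by
    intro x hx
    fin_cases x
    · exact ⟨.a, rfl⟩
    · exact ⟨.b, rfl⟩
    · exact absurd hx (by decide)
    · exact absurd hx (by decide)
    · exact absurd hx (by decide)
    · exact absurd hx (by decide)
    · exact absurd hx (by decide)
    · exact absurd hx (by decide))
/-- letters of the top level as words of lower letters -/
def dl : X → W X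
  | 3 => [(0, true), (1, false), (0, false), (2, true), (1, true), (0, false), (2, false), (0, true)]
  | 4 => [(0, true), (2, true), (1, true), (0, true), (2, true), (1, true), (2, true), (0, true), (1, true), (2, true)]
  | 5 => [(0, true), (2, true), (1, false), (0, false), (1, false), (2, true), (1, true), (0, false), (2, false), (1, true)]
  | 6 => [(0, false), (2, true), (0, true), (1, true), (0, true), (0, true), (1, false), (2, true)]
  | _ => []
theorem dlt : ∀ x, TA x = true → ev g ((x, true) :: winv (dl x)) = 1 := by
  intro x hx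
  refine tr1 ?_
  fin_cases x <;> first | (exact absurd hx (by decide)) | decide +kernel
theorem gen : Kl g SA = ⊤ := by
  refine top_of_gens genP ?_
  intro a
  cases a
  · exact ⟨[(6, true), (3, false), (4, true), (5, true), (3, false), (4, true), (6, false), (3, true), (4, false)], by decide, ln.gen hinj hbp' (net := NHe.net) (by decide +kernel)⟩
  · exact ⟨[(4, true), (4, true), (5, true), (6, true), (7, true), (3, false), (5, true), (6, true), (5, true), (7, true), (5, false), (6, true), (3, false)], by decide, ln.gen hinj hbp' (net := NHe.net) (by decide +kernel)⟩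
  · exact ⟨[(3, true), (6, false), (4, true), (6, false), (5, true), (4, false), (6, true)], by decide, ln.gen hinj hbp' (net := NHe.net) (by decide +kernel)⟩
  · exact ⟨[(6, false), (3, true), (4, false), (5, false), (4, true), (4, true), (5, false), (6, true)], by decide, ln.gen hinj hbp' (net := NHe.net) (by decide +kernel)⟩
  · exact ⟨[(5, false), (3, false), (4, true), (3, false), (5, true), (4, false), (4, false), (3, false)], by decide, ln.gen hinj hbp' (net := NHe.net) (by decide +kernel)⟩
  · exact ⟨[(4, true), (3, false), (4, false), (5, false), (3, false), (5, false), (6, false), (4, false)], by decide, ln.gen hinj hbp' (net := NHe.net) (by decide +kernel)⟩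
  · exact ⟨[(5, true), (6, false), (7, true), (3, true), (5, true), (3, true), (4, false), (3, true), (7, false), (4, true), (5, true), (4, true)], by decide, ln.gen hinj hbp' (net := NHe.net) (by decide +kernel)⟩
theorem card_top : Nat.card (Kl g SA) = 4030387200 := by
  rw [gen, Nat.card_congr (Subgroup.topEquiv (G := Cfsg.Spor.He)).toEquiv, card_inj.1]
theorem bound (Γ : Type) [Group Γ] [Finite Γ] (σ : Γ →* Cfsg.Spor.He) (f : X → Γ) (h : Lifts σ 2 nn g f) :
    Nat.card (Kl f SA) ≤ 4030387200 := by
  haveI : Finite Cfsg.Spor.He := HeMain.fin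
  have e1 : Kl f TB = Kl f SC := by congr 1
  have e1' : Kl g TB = Kl g SC := by congr 1
  -- sizes in the group
  have g0 := lvA (Lifts.self hord) (Inj.self TA)
  rw [card_top] at g0
  have gd : Nat.card (Kl g TA) ≤ Nat.card (Kl g SB) := (Lifts.self (q := 2) hord).new_le (Inj.self SB) dl (by decide) (by decide) dlt
  have g1 := lvB (Lifts.self hord) (Inj.self TB)
  have g2 := lvC (Lifts.self hord) (Inj.self TC)
  rw [e1'] at g1
  have c1' : Nat.card (Kl g TC) ≤ 17 := card_Kl_one (x0 := 0) (by decide) (by norm_num) (hord 0)
  -- the extension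
  have c1 : Nat.card (Kl f TC) ≤ 17 := card_Kl_one (x0 := 0) (by decide) (by norm_num) (h.ord 0)
  have f2 := lvC h (h.inj_one' (x0 := 0) (by decide) (by decide))
  have i1 : Inj g f TB := h.inj (by rw [e1, e1']; omega)
  have f1 := lvB h i1
  rw [e1] at f1
  have i0 : Inj g f SB := h.inj (by omega)
  have fd : Nat.card (Kl f TA) ≤ Nat.card (Kl f SB) := h.new_le i0 dl (by decide) (by decide) dlt
  have iA : Inj g f TA := h.inj (by omega)
  have f0 := lvA h iA
  omega
theorem noExt2 : NoExt Cfsg.Spor.He 2 :=
  haveI : Finite Cfsg.Spor.He := HeMain.fin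
  noExt_of_bound (q := 2) (by norm_num) hord hn gen bound (by rw [card_inj.1]; norm_num)
end H35.MulHeA
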