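import Mathlib
import Cfsg.Agent.Lib.H35.StemRule
import Cfsg.Agent.Lib.H35.NXHeB
import Cfsg.Agent.Lib.H35.HeMain
import Cfsg.Agent.Lib.H35.TCMHeD
import Cfsg.Agent.Lib.H35.TCMHeE
import Cfsg.Agent.Lib.H35.TCMHeF

set_option autoImplicit false
set_option maxRecDepth 100000
set_option linter.all false
set_option Elab.async false
namespace H35.MulHeB
open Subgroup H35.Stem H35.TC H35.Net H35.HeMain H35.NXHeB
abbrev X := Fin 4
/-- exponents of the letters -/
def nn : X → ℕ := ![17, 2, 17, 2]
/-- words of the letters -/
def d : X → List LA
  | 0 => [.b, .d, .c, .b, .e, .g, .d, .e, .f, .d, .c, .g, .d, .f, .e, .b, .c, .d, .c, .d, .f, .c]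
  | 1 => [.b, .c, .b, .d, .g, .d, .c, .b, .d, .c, .d, .c, .f, .d, .c, .d, .b, .c, .d, .g, .d, .b, .c, .b]
  | 2 => [.c, .d, .c, .b, .e, .f, .d, .c, .d, .g, .d, .c, .d, .e, .b, .c, .d, .f, .c, .d, .e, .d, .c, .d, .a]
  | 3 => [.a, .b, .d, .f, .g, .d, .c, .b, .f, .d, .c, .d, .g, .d, .c, .d, .f, .a, .b, .c, .d, .g, .f, .d, .b, .a]
/-- the letters -/
noncomputable def g (x : X) : Cfsg.Spor.He := ((d x).map gP).prod
theorem hbp' : ∀ x, BP (2 ^ 12) (NHe.net x) (φ (gP x)) := by
  intro x
  rw [hφ]
  exact NHe.hbp x
theorem ln : LetNet 12 φ g netX := letNet_of hbp' bpx invx (by intro x; fin_cases x <;> decide +kernel)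
theorem hinj : Function.Injective φ := card_inj.2
noncomputable def ck (w : W X) (m : ℕ) : Bool := chkW netX 12 w m 0 12
theorem tr (w : W X) (m : ℕ) (h : ck w m = true) : (ev g w) ^ m = 1 := ln.pow_one hinj h
theorem tr1 {w : W X} (h : ck w 1 = true) : ev g w = 1 := ln.ev_one hinj h
theorem hord (x : X) : g x ^ nn x = 1 := by
  have h : ∀ x, ck [(x, true)] (nn x) = true := by intro x; fin_cases x <;> decide +kernel
  have h1 := tr _ _ (h x)
  change (g x * 1) ^ nn x = 1 at h1
  rwa [mul_one] at h1
theorem hn : ∀ x, Nat.Coprime (nn x) 105 := by decide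
/-- letters of level A -/
def SA : X → Bool := ![true, true, true, true]

/-- lower letters of level A -/
def TA : X → Bool := ![true, true, true, false]

def wdA : TCMHeD.Lt → W X
  | .a => [(0, true)]
  | .ai => [(0, false)]
  | .b => [(1, true)]
  | .c => [(2, true)]
  | .ci => [(2, false)]
  | .d => [(3, true)]

def rulesA_0 : List (Rule X) := [
  .conj [(3, true)] [(2, true), (0, false), (2, false), (2, false)] [(2, true), (0, false), (2, false), (2, false)] 4,
  .conj [(0, true), (2, true), (3, true), (2, false), (0, false)] [(3, true)] [(3, true)] 2,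
  .conj [(1, true), (2, true), (0, false), (2, true), (2, true)] [(3, true)] [(3, true)] 2,
  .conj [(3, true), (1, true)] [(3, true)] [(1, true), (2, true), (0, false), (2, false), (0, false), (2, false), (2, false)] 2,
  .conj [(3, true)] [(0, true), (2, false), (1, true), (2, true), (0, false)] [(2, false), (0, true), (2, false), (1, true), (2, true), (0, false), (2, false)] 2,
  .conj [(3, true)] [(2, false), (2, false), (1, true), (2, true), (2, true)] [(0, true), (2, true), (0, true), (2, false), (1, true), (2, true), (0, false), (2, false), (0, false)] 2]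

def rulesA_1 : List (Rule X) := [
  .conj [(3, true), (0, true), (0, true), (3, true)] [(1, true)] [(2, true), (0, false), (2, false), (0, true), (1, true), (0, false), (0, false), (2, false)] 2,
  .conj [(3, true)] [(0, true), (2, false), (1, true), (2, true), (0, false)] [(2, true), (0, true), (2, true), (2, true), (0, false), (0, false), (0, false), (1, true), (0, false), (0, false), (2, false)] 2,
  .low [(0, true), (0, true), (1, true), (0, false), (1, true), (0, false), (1, true), (0, true), (1, true), (2, false), (1, true), (2, true), (1, true), (2, true)],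
  .low [(0, true), (0, true), (1, true), (0, true), (1, true), (0, true), (2, true), (0, false), (0, false), (1, true), (2, true), (1, true), (0, true), (0, true), (2, false)],
  .low [(0, true), (0, true), (0, true), (0, true), (1, true), (0, true), (1, true), (0, false), (2, false), (1, true), (2, false), (1, true), (2, true), (0, true), (1, true)],
  .low [(0, true), (0, true), (1, true), (0, true), (1, true), (0, false), (1, true), (2, false), (2, false), (1, true), (2, true), (2, true), (1, true), (0, false), (1, true)]]

def rulesA_2 : List (Rule X) := [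
  .low [(0, true), (0, true), (1, true), (0, false), (2, true), (2, true), (0, true), (2, false), (0, false), (2, false), (2, false), (1, true), (0, false), (1, true), (0, true), (1, true)],
  .low [(0, true), (0, true), (0, true), (2, false), (1, true), (0, true), (2, false), (1, true), (2, true), (0, false), (1, true), (2, true), (0, false), (0, false), (0, false), (1, true)],
  .ord 2,
  .low [(0, true), (0, true), (0, true), (2, false), (1, true), (2, false), (1, true), (2, true), (0, false), (0, false), (1, true), (0, true), (1, true), (0, false), (1, true), (0, false), (1, true)],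
  .low [(0, true), (0, true), (0, true), (0, true), (0, true), (0, true), (0, true), (0, true), (2, false), (1, true), (2, false), (2, false), (1, true), (2, true), (0, false), (0, false), (1, true)],
  .low [(0, true), (0, true), (1, true), (0, false), (1, true), (0, false), (1, true), (0, true), (0, true), (1, true), (0, false), (1, true), (2, false), (1, true), (2, true), (1, true), (2, true), (1, true)]]

def rulesA_3 : List (Rule X) := [
  .low [(0, true), (0, true), (1, true), (0, true), (1, true), (0, false), (0, false), (1, true), (0, true), (0, true), (1, true), (0, true), (1, true), (0, false), (0, false), (1, true)],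
  .low [(0, true), (0, true), (0, true), (0, true), (1, true), (0, false), (1, true), (0, true), (1, true), (0, false), (0, false), (0, false), (0, false), (1, true), (0, true), (1, true), (0, false), (1, true)]]

def rulesA : List (Rule X) := rulesA_0 ++ rulesA_1 ++ rulesA_2 ++ rulesA_3

def cenA : TCMHeD.Lt → Bool
  | _ => false

def CA : CP X TCMHeD.Lt where
  iv := fun x => decide (nn x = 2)
  wd := wdA
  cen := cenA
  q := 105
  exact := rulesA.map fun r => nrm (fun x => decide (nn x = 2)) (red (fun x => decide (nn x = 2)) (r.word nn))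

theorem tkA_0 : (rulesA_0.all (Rule.chk nn ck)) = true := by decide +kernel

theorem tkA_1 : (rulesA_1.all (Rule.chk nn ck)) = true := by decide +kernel

theorem tkA_2 : (rulesA_2.all (Rule.chk nn ck)) = true := by decide +kernel

theorem tkA_3 : (rulesA_3.all (Rule.chk nn ck)) = true := by decide +kernel

theorem htA : ∀ r ∈ rulesA, ∀ w ∈ r.needs nn, ev g w = 1 := by
  intro r hr
  refine Rule.needs_of_chk tr ?_
  simp only [rulesA, List.mem_append] at hr
  rcases hr with ((hr | hr) | hr) | hr
  · exact List.all_eq_true.1 tkA_0 r hr
  · exact List.all_eq_true.1 tkA_1 r hr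
  · exact List.all_eq_true.1 tkA_2 r hr
  · exact List.all_eq_true.1 tkA_3 r hr

theorem hcA : ∀ z, CA.cen z = true → ev g (CA.wd z) = 1 := by
  intro z hz
  refine tr1 ?_
  cases z <;> first | (exact absurd hz (by decide)) | decide +kernel

theorem lvA {Γ : Type} [Group Γ] [Finite Γ] {σ : Γ →* Cfsg.Spor.He} {f : X → Γ} (h : Lifts σ 105 nn g f) (hi : Inj g f TA) :
    Nat.card (Kl f SA) ≤ 4116 * Nat.card (Kl f TA) := by
  have hh : CA.Holds f := holdsF (Ss := [TA]) h (by intro S hS; simp only [List.mem_singleton] at hS; subst hS; exact hi) rfl (by decide) rfl (by decide +kernel) htA hcA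
  obtain ⟨hinv, hrel⟩ := CP.relOK hh (inv := TCMHeD.inv) (mm := TCMHeD.mm) (ex := TCMHeD.extra) (by intro x; cases x <;> decide +kernel)
    (by intro x y; cases x <;> cases y <;> decide +kernel) (by decide +kernel)
  exact level (subs := TCMHeD.subs) (fun H hH => TCMHeD.main hinv hrel.1 hrel.2 hH) (by decide +kernel) (by
    intro x hx
    fin_cases x
    · exact ⟨.a, rfl⟩
    · exact ⟨.b, rfl⟩
    · exact ⟨.c, rfl⟩
    · exact ⟨.d, rfl⟩)
/-- letters of level B -/
def SB : X → Bool := ![true, true, true, false]

/-- lower letters of level B -/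
def TB : X → Bool := ![true, true, false, false]

def wdB : TCMHeE.Lt → W X
  | .a => [(0, true)]
  | .ai => [(0, false)]
  | .b => [(1, true)]
  | .c => [(2, true)]
  | .ci => [(2, false)]

def rulesB_0 : List (Rule X) := [
  .conj [(2, false), (1, true)] [(2, true)] [(1, true), (0, false), (1, true), (0, true), (1, true), (0, true), (1, true), (0, false), (0, false)] 17,
  .conj [(2, true), (0, false), (0, false), (1, true)] [(2, true)] [(0, false), (1, true), (0, false), (1, true), (0, false), (0, false)] 17,
  .conj [(2, false), (1, true)] [(2, false)] [(0, true), (1, true), (0, false), (1, true), (0, false), (0, false), (0, false), (0, false), (1, true), (0, false)] 17,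
  .conj [(2, false), (2, false)] [(1, true)] [(1, true), (0, true), (1, true), (0, false), (1, true), (0, false), (0, false), (1, true), (0, true), (1, true)] 2,
  .conj [(2, false), (1, true)] [(2, true)] [(1, true), (0, true), (1, true), (0, false), (0, false), (1, true), (0, true), (1, true), (0, true), (1, true), (0, false), (0, false), (1, true)] 17,
  .low [(0, true), (0, true), (1, true), (0, false), (0, false), (1, true), (0, true), (1, true), (0, true), (0, true), (1, true), (0, false), (0, false), (1, true), (0, true), (1, true)]]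

def rulesB_1 : List (Rule X) := [
  .low [(0, true), (0, true), (0, true), (1, true), (0, true), (0, true), (0, true), (1, true), (0, true), (0, true), (0, true), (1, true)]]

def rulesB : List (Rule X) := rulesB_0 ++ rulesB_1

def cenB : TCMHeE.Lt → Bool
  | _ => false

def CB : CP X TCMHeE.Lt where
  iv := fun x => decide (nn x = 2)
  wd := wdB
  cen := cenB
  q := 105
  exact := rulesB.map fun r => nrm (fun x => decide (nn x = 2)) (red (fun x => decide (nn x = 2)) (r.word nn))

theorem tkB_0 : (rulesB_0.all (Rule.chk nn ck)) = true := by decide +kernel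

theorem tkB_1 : (rulesB_1.all (Rule.chk nn ck)) = true := by decide +kernel

theorem htB : ∀ r ∈ rulesB, ∀ w ∈ r.needs nn, ev g w = 1 := by
  intro r hr
  refine Rule.needs_of_chk tr ?_
  simp only [rulesB, List.mem_append] at hr
  rcases hr with hr | hr
  · exact List.all_eq_true.1 tkB_0 r hr
  · exact List.all_eq_true.1 tkB_1 r hr

theorem hcB : ∀ z, CB.cen z = true → ev g (CB.wd z) = 1 := by
  intro z hz
  refine tr1 ?_
  cases z <;> first | (exact absurd hz (by decide)) | decide +kernel

theorem lvB {Γ : Type} [Group Γ] [Finite Γ] {σ : Γ →* Cfsg.Spor.He} {f : X → Γ} (h : Lifts σ 105 nn g f) (hi : Inj g f TB) :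
    Nat.card (Kl f SB) ≤ 240 * Nat.card (Kl f TB) := by
  have hh : CB.Holds f := holdsF (Ss := [TB]) h (by intro S hS; simp only [List.mem_singleton] at hS; subst hS; exact hi) rfl (by decide) rfl (by decide +kernel) htB hcB
  obtain ⟨hinv, hrel⟩ := CP.relOK hh (inv := TCMHeE.inv) (mm := TCMHeE.mm) (ex := TCMHeE.extra) (by intro x; cases x <;> decide +kernel)
    (by intro x y; cases x <;> cases y <;> decide +kernel) (by decide +kernel)
  exact level (subs := TCMHeE.subs) (fun H hH => TCMHeE.main hinv hrel.1 hrel.2 hH) (by decide +kernel) (by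
    intro x hx
    fin_cases x
    · exact ⟨.a, rfl⟩
    · exact ⟨.b, rfl⟩
    · exact ⟨.c, rfl⟩
    · exact absurd hx (by decide))
/-- letters of level C -/
def SC : X → Bool := ![true, true, false, false]

/-- lower letters of level C -/
def TC : X → Bool := ![true, false, false, false]

def wdC : TCMHeF.Lt → W X
  | .a => [(0, true)]
  | .ai => [(0, false)]
  | .b => [(1, true)]
  | .z => [(0, true), (0, true), (0, true), (1, true), (0, true), (0, true), (0, true), (1, true), (0, true), (0, true), (0, true), (1, true)]
  | .zi => [(1, true), (0, false), (0, false), (0, false), (1, true), (0, false), (0, false), (0, false), (1, true), (0, false), (0, false), (0, false)]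

def rulesC_0 : List (Rule X) := [
  .conj [(1, true), (0, false), (0, false), (1, true), (0, true), (0, true), (1, true)] [(0, true)] [(0, false)] 17,
  .ord 0]

def rulesC : List (Rule X) := rulesC_0

def cenC : TCMHeF.Lt → Bool
  | .z => true
  | .zi => true
  | _ => false

def CC : CP X TCMHeF.Lt where
  iv := fun x => decide (nn x = 2)
  wd := wdC
  cen := cenC
  q := 105
  exact := rulesC.map fun r => nrm (fun x => decide (nn x = 2)) (red (fun x => decide (nn x = 2)) (r.word nn))

theorem tkC_0 : (rulesC_0.all (Rule.chk nn ck)) = true := by decide +kernel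

theorem htC : ∀ r ∈ rulesC, ∀ w ∈ r.needs nn, ev g w = 1 := by
  intro r hr
  exact Rule.needs_of_chk tr (List.all_eq_true.1 tkC_0 r hr)

theorem hcC : ∀ z, CC.cen z = true → ev g (CC.wd z) = 1 := by
  intro z hz
  refine tr1 ?_
  cases z <;> first | (exact absurd hz (by decide)) | decide +kernel

theorem lvC {Γ : Type} [Group Γ] [Finite Γ] {σ : Γ →* Cfsg.Spor.He} {f : X → Γ} (h : Lifts σ 105 nn g f) (hi : Inj g f TC) :
    Nat.card (Kl f SC) ≤ 240 * Nat.card (Kl f TC) := by
  have hh : CC.Holds f := holdsF (Ss := [TC]) h (by intro S hS; simp only [List.mem_singleton] at hS; subst hS; exact hi) rfl (by decide) rfl (by decide +kernel) htC hcC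
  obtain ⟨hinv, hrel⟩ := CP.relOK hh (inv := TCMHeF.inv) (mm := TCMHeF.mm) (ex := TCMHeF.extra) (by intro x; cases x <;> decide +kernel)
    (by intro x y; cases x <;> cases y <;> decide +kernel) (by decide +kernel)
  exact level (subs := TCMHeF.subs) (fun H hH => TCMHeF.main hinv hrel.1 hrel.2 hH) (by decide +kernel) (by
    intro x hx
    fin_cases x
    · exact ⟨.a, rfl⟩
    · exact ⟨.b, rfl⟩
    · exact absurd hx (by decide)
    · exact absurd hx (by decide))
theorem gen : Kl g SA = ⊤ := by
  refine top_of_gens genP ?_
  intro a
  cases a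
  · exact ⟨[(0, true), (2, true), (1, true), (0, true), (1, true), (0, false), (0, false), (2, true), (0, true), (2, false), (0, false), (2, false)], by decide, ln.gen hinj hbp' (net := NHe.net) (by decide +kernel)⟩
  · exact ⟨[(1, true), (2, false), (1, true), (2, false), (1, true), (3, true), (1, true), (2, true), (1, true), (2, true), (1, true)], by decide, ln.gen hinj hbp' (net := NHe.net) (by decide +kernel)⟩
  · exact ⟨[(0, true), (1, true), (0, false), (0, false), (2, true), (0, true), (2, false), (0, false), (2, false), (0, true), (2, true), (1, true)], by decide, ln.gen hinj hbp' (net := NHe.net) (by decide +kernel)⟩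
  · exact ⟨[(1, true), (0, true), (2, false), (2, false), (2, false), (0, false), (2, true), (0, true), (0, true), (1, true), (0, false)], by decide, ln.gen hinj hbp' (net := NHe.net) (by decide +kernel)⟩
  · exact ⟨[(0, true), (1, true), (2, false), (1, true), (2, false), (0, false), (2, true), (0, false), (1, true), (2, false), (2, false)], by decide, ln.gen hinj hbp' (net := NHe.net) (by decide +kernel)⟩
  · exact ⟨[(2, true), (1, true), (0, false), (1, true), (0, true), (1, true), (2, false)], by decide, ln.gen hinj hbp' (net := NHe.net) (by decide +kernel)⟩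
  · exact ⟨[(0, true), (2, true), (1, true), (3, true), (2, false), (0, false), (2, false), (1, true), (2, false), (3, true), (0, false), (1, true), (2, true), (1, true)], by decide, ln.gen hinj hbp' (net := NHe.net) (by decide +kernel)⟩
theorem card_top : Nat.card (Kl g SA) = 4030387200 := by
  rw [gen, Nat.card_congr (Subgroup.topEquiv (G := Cfsg.Spor.He)).toEquiv, card_inj.1]
theorem bound (Γ : Type) [Group Γ] [Finite Γ] (σ : Γ →* Cfsg.Spor.He) (f : X → Γ) (h : Lifts σ 105 nn g f) :
    Nat.card (Kl f SA) ≤ 4030387200 := by
  haveI : Finite Cfsg.Spor.He := HeMain.fin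
  have g0 := lvA (Lifts.self hord) (Inj.self TA)
  have g1 := lvB (Lifts.self hord) (Inj.self TB)
  have g2 := lvC (Lifts.self hord) (Inj.self TC)
  rw [card_top] at g0
  have e0 : Kl f TA = Kl f SB := by congr 1
  have e0' : Kl g TA = Kl g SB := by congr 1
  have e1 : Kl f TB = Kl f SC := by congr 1
  have e1' : Kl g TB = Kl g SC := by congr 1
  rw [e0'] at g0
  rw [e1'] at g1
  have c1 : Nat.card (Kl f TC) ≤ 17 := card_Kl_one (x0 := 0) (by decide) (by norm_num) (h.ord 0)
  have c1' : Nat.card (Kl g TC) ≤ 17 := card_Kl_one (x0 := 0) (by decide) (by norm_num) (hord 0)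
  have f2 := lvC h (h.inj_one' (x0 := 0) (by decide) (by decide))
  have i1 : Inj g f TB := h.inj (by rw [e1, e1']; omega)
  have f1 := lvB h i1
  rw [e1] at f1
  have i0 : Inj g f TA := h.inj (by rw [e0, e0']; omega)
  have f0 := lvA h i0
  rw [e0] at f0
  omega
theorem noExt (p : ℕ) (hp : p ∣ 105) (h1 : 1 < p) : NoExt Cfsg.Spor.He p :=
  haveI : Finite Cfsg.Spor.He := HeMain.fin
  noExt_of_bound (q := 105) hp hord hn gen bound (by rw [card_inj.1]; omega)
end H35.MulHeB
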