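import Cfsg.Prelude.Def_KGroupFacts
import Cfsg.Agent.Lib.H35.MulHeA
import Cfsg.Agent.Lib.H35.MulHeB
/-!
# The Schur multiplier of He
-/
set_option autoImplicit false
namespace H35.MulHe
open H35.Stem
theorem mult : Cfsg.HasCyclicSchurMultiplier Cfsg.Spor.He 1 := by
  haveI : Finite Cfsg.Spor.He := HeMain.fin
  refine hasCyclic_one_list [(2, 10), (3, 3), (5, 2), (7, 3), (17, 1)] (by decide +kernel) (by rw [HeMain.card_inj.1]; norm_num) ?_
  intro a ha
  fin_cases ha
  · exact Or.inl MulHeA.noExt2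
  · exact Or.inl (MulHeB.noExt 3 (by norm_num) (by norm_num))
  · exact Or.inl (MulHeB.noExt 5 (by norm_num) (by norm_num))
  · exact Or.inl (MulHeB.noExt 7 (by norm_num) (by norm_num))
  · exact Or.inr (by rw [HeMain.card_inj.1]; norm_num)
end H35.MulHe
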