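import Mathlib
import Cfsg.Agent.Lib.H35.StemFin
import Cfsg.Agent.Lib.H40.OutM12
import Cfsg.Agent.Lib.H61.M11Deg
import Cfsg.Agent.Lib.H35.TCM11A

set_option autoImplicit false
set_option maxRecDepth 100000
set_option linter.all false

namespace H35.MulM11
open Subgroup H35.Stem H35.TC H40.PermCode H40.MathieuBase

abbrev X := Fin 3

/-- exponents of the letters -/
def nn : X → ℕ := ![11, 5, 11]

/-- codes -/
def code : X → ℕ := ![0xbd6717b56939461b52507314831040, 0xbae75734e2a3d8354606b24b222020, 0x53dd4b04b2aad033ce0c8a6ed31040]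
def codei : X → ℕ := ![0xbaecaaa68899e468960478dc268580, 0xb9e8fa914974e4db2cc28a0a364020, 0x2cdf4540e9b548875ccd58e2260640]
theorem okk : ∀ x, okc 5 24 (code x) (codei x) = true := by intro x; fin_cases x <;> decide +kernel
noncomputable def perm (x : X) : Equiv.Perm Cfsg.GolayPt := ofCode E24 5 (code x) (codei x) (okk x)
theorem rep_c (x : X) : Rep E24 5 (perm x) (code x) := rep_ofCode _
theorem rep_ci (x : X) : Rep E24 5 (perm x)⁻¹ (codei x) := rep_ofCode_inv _
theorem mem (x : X) : perm x ∈ Cfsg.Spor.M11 := by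
  refine H40.OutM12.mem11_of_rep (rep_c x) ?_ ?_ ?_ <;> fin_cases x <;> decide +kernel
noncomputable def g (x : X) : Cfsg.Spor.M11 := ⟨perm x, mem x⟩
theorem tr {w : W X} (h : isOne 5 24 (evc 5 24 code codei w) = true) : ev g w = 1 :=
  ev_one_of_code hn24 (g := g) rep_c rep_ci h
theorem hord (x : X) : g x ^ nn x = 1 := by
  have h : ∀ x, isOne 5 24 (evc 5 24 code codei (rep [(x, true)] (nn x))) = true := by intro x; fin_cases x <;> decide +kernel
  have h1 := tr (h x)
  rw [ev_rep] at h1
  change (g x * 1) ^ nn x = 1 at h1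
  rwa [mul_one] at h1

theorem hn : ∀ x, Nat.Coprime (nn x) 6 := by decide

/-- letters of level A -/
def SA : X → Bool := ![true, true, true]

/-- lower letters of level A -/
def TA : X → Bool := ![true, false, false]

def wdA : TCM11A.Lt → W X
  | .b => [(0, true)]
  | .bi => [(0, false)]
  | .d => [(1, true)]
  | .di => [(1, false)]
  | .e => [(2, true)]
  | .ei => [(2, false)]

def rulesA : List (Rule X) := [
  .ord 1,
  .conj [(1, true)] [(0, false)] [(0, false), (0, false), (0, false)] 11,
  .conj [(1, true), (1, true)] [(0, true)] [(0, false), (0, false)] 11,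
  .conj [(0, false), (2, true)] [(1, false)] [(1, false), (1, false)] 5,
  .conj [(1, false), (0, false), (2, true), (2, true), (1, true)] [(0, false)] [(2, false)] 11,
  .conj [(0, false), (1, true), (2, false), (0, false), (1, false)] [(2, false)] [(2, false)] 11]

def cenA : TCM11A.Lt → Bool
  | _ => false

def CA : CP X TCM11A.Lt where
  iv := fun _ => false
  wd := wdA
  cen := cenA
  q := 6
  exact := rulesA.map fun r => red (fun _ => false) (r.word nn)

theorem htA : ∀ r ∈ rulesA, ∀ w ∈ r.needs nn, ev g w = 1 := by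
  have h : ((rulesA.flatMap (Rule.needs nn)).all fun w => isOne 5 24 (evc 5 24 code codei w)) = true := by decide +kernel
  intro r hr w hw
  exact tr (List.all_eq_true.1 h w (List.mem_flatMap.2 ⟨r, hr, hw⟩))
theorem hcA : ∀ z, CA.cen z = true → ev g (CA.wd z) = 1 := by
  intro z hz
  refine tr ?_
  cases z <;> first | (exact absurd hz (by decide)) | decide +kernel

theorem lvA {Γ : Type} [Group Γ] [Finite Γ] {σ : Γ →* Cfsg.Spor.M11} {f : X → Γ} (h : Lifts σ 6 nn g f) (hi : Inj g f TA) :
    Nat.card (Kl f SA) ≤ 720 * Nat.card (Kl f TA) := by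
  have hh : CA.Holds f := holds h hi rfl (fun _ h => absurd (show false = true from h) (by decide)) rfl (by decide +kernel) htA hcA
  obtain ⟨hinv, hrel⟩ := CP.relOK hh (inv := TCM11A.inv) (mm := TCM11A.mm) (ex := TCM11A.extra) (by intro x; cases x <;> decide +kernel)
    (by intro x y; cases x <;> cases y <;> decide +kernel) (by decide +kernel)
  exact level (subs := TCM11A.subs) (fun H hH => TCM11A.main hinv hrel.1 hrel.2 hH) (by decide +kernel) (by
    intro x hx
    fin_cases x
    · exact ⟨.b, rfl⟩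
    · exact ⟨.d, rfl⟩
    · exact ⟨.e, rfl⟩)

theorem card_M11 : Nat.card Cfsg.Spor.M11 = 7920 := H61.M11Deg.card_M11
theorem gen : Kl g SA = ⊤ := by
  rw [eq_top_iff, ← H40.OutM12.gen11, closure_le]
  intro x hx
  rcases hx with rfl | rfl | rfl
  · exact mem_Kl (f := g) (x := 0) (by decide)
  · exact mem_Kl (f := g) (x := 1) (by decide)
  · rw [show H40.OutM12.cF = ev g [(0, false), (2, true)] from eq_ev_of_code hn24 (g := g) rep_c rep_ci (p := H40.OutM12.cF) H40.OutM12.rep_c (by decide +kernel)]
    exact ev_mem_Kl (by decide)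
theorem bound (Γ : Type) [Group Γ] [Finite Γ] (σ : Γ →* Cfsg.Spor.M11) (f : X → Γ) (h : Lifts σ 6 nn g f) :
    Nat.card (Kl f SA) ≤ 7920 := by
  have c1 : Nat.card (Kl f TA) ≤ 11 := card_Kl_one (x0 := 0) (by decide) (by norm_num) (h.ord 0)
  have f2 := lvA h (h.inj_one hn (x0 := 0) (by decide))
  omega
theorem noExt2 : NoExt Cfsg.Spor.M11 2 := noExt_of_bound (q := 6) (by norm_num) hord hn gen bound (by rw [card_M11]; norm_num)
theorem noExt3 : NoExt Cfsg.Spor.M11 3 := noExt_of_bound (q := 6) (by norm_num) hord hn gen bound (by rw [card_M11]; norm_num)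
theorem mult : Cfsg.HasCyclicSchurMultiplier Cfsg.Spor.M11 1 := by
  refine hasCyclic_one_list [(2, 4), (3, 2), (5, 1), (11, 1)] (by decide +kernel) (by rw [card_M11]; norm_num) ?_
  intro a ha
  fin_cases ha
  · exact Or.inl noExt2
  · exact Or.inl noExt3
  all_goals exact Or.inr (by rw [card_M11]; norm_num)

end H35.MulM11
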