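import Mathlib
import Cfsg.Agent.Lib.H35.StemPerf
import Cfsg.Agent.Lib.H40.OutM12
import Cfsg.Agent.Lib.H35.TCM12A
import Cfsg.Agent.Lib.H35.TCM11A

set_option autoImplicit false
set_option maxRecDepth 100000
set_option linter.all false

namespace H35.MulM12
open Subgroup H35.Stem H35.TC H40.PermCode H40.MathieuBase

abbrev X := Fin 4

/-- exponents of the letters -/
def nn : X → ℕ := ![11, 5, 11, 5]

/-- codes -/
def code : X → ℕ := ![0xbd6717b56939461b52507314831040, 0xbae75734e2a3d8354606b24b222020, 0x53dd4b04b2aad033ce0c8a6ed31040, 0x7da87b91528b80cacd222856643603]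
def codei : X → ℕ := ![0xbaecaaa68899e468960478dc268580, 0xb9e8fa914974e4db2cc28a0a364020, 0x2cdf4540e9b548875ccd58e2260640, 0x9d975541e1bb84c2c523a10f2020cd]
theorem okk : ∀ x, okc 5 24 (code x) (codei x) = true := by intro x; fin_cases x <;> decide +kernel
noncomputable def perm (x : X) : Equiv.Perm Cfsg.GolayPt := ofCode E24 5 (code x) (codei x) (okk x)
theorem rep_c (x : X) : Rep E24 5 (perm x) (code x) := rep_ofCode _
theorem rep_ci (x : X) : Rep E24 5 (perm x)⁻¹ (codei x) := rep_ofCode_inv _
theorem mem (x : X) : perm x ∈ Cfsg.Spor.M12 := by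
  refine H40.OutM12.mem12_of_rep (rep_c x) ?_ ?_ <;> fin_cases x <;> decide +kernel
noncomputable def g (x : X) : Cfsg.Spor.M12 := ⟨perm x, mem x⟩
theorem tr {w : W X} (h : isOne 5 24 (evc 5 24 code codei w) = true) : ev g w = 1 :=
  ev_one_of_code hn24 (g := g) rep_c rep_ci h
theorem hord (x : X) : g x ^ nn x = 1 := by
  have h : ∀ x, isOne 5 24 (evc 5 24 code codei (rep [(x, true)] (nn x))) = true := by intro x; fin_cases x <;> decide +kernel
  have h1 := tr (h x)
  rw [ev_rep] at h1
  change (g x * 1) ^ nn x = 1 at h1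
  rwa [mul_one] at h1

theorem hn : ∀ x, Nat.Coprime (nn x) 12 := by decide

/-- letters of level A -/
def SA : X → Bool := ![true, true, true, true]

/-- lower letters of level A -/
def TA : X → Bool := ![true, true, true, false]

def wdA : TCM12A.Lt → W X
  | .b => [(0, true)]
  | .bi => [(0, false)]
  | .d => [(1, true)]
  | .di => [(1, false)]
  | .e => [(2, true)]
  | .ei => [(2, false)]
  | .f => [(3, true)]
  | .fi => [(3, false)]

def rulesA : List (Rule X) := [
  .conj [(3, true), (1, false)] [(3, true)] [(1, false)] 5,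
  .conj [(3, true)] [(1, true), (0, false)] [(0, false), (0, false), (1, false)] 5,
  .conj [(3, false), (2, true)] [(3, false), (3, false)] [(1, false)] 5,
  .conj [(1, true)] [(0, false)] [(0, false), (0, false), (0, false)] 11,
  .conj [(1, true), (1, true)] [(0, true)] [(0, false), (0, false)] 11,
  .conj [(0, false), (2, true)] [(1, false)] [(1, false), (1, false)] 5]

def cenA : TCM12A.Lt → Bool
  | _ => false

def CA : CP X TCM12A.Lt where
  iv := fun _ => false
  wd := wdA
  cen := cenA
  q := 12
  exact := rulesA.map fun r => red (fun _ => false) (r.word nn)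

theorem htA : ∀ r ∈ rulesA, ∀ w ∈ r.needs nn, ev g w = 1 := by
  have h : ((rulesA.flatMap (Rule.needs nn)).all fun w => isOne 5 24 (evc 5 24 code codei w)) = true := by decide +kernel
  intro r hr w hw
  exact tr (List.all_eq_true.1 h w (List.mem_flatMap.2 ⟨r, hr, hw⟩))
theorem hcA : ∀ z, CA.cen z = true → ev g (CA.wd z) = 1 := by
  intro z hz
  refine tr ?_
  cases z <;> first | (exact absurd hz (by decide)) | decide +kernel

theorem lvA {Γ : Type} [Group Γ] [Finite Γ] {σ : Γ →* Cfsg.Spor.M12} {f : X → Γ} (h : Lifts σ 12 nn g f) (hi : Inj g f TA) :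
    Nat.card (Kl f SA) ≤ 24 * Nat.card (Kl f TA) := by
  have hh : CA.Holds f := holds h hi rfl (fun _ h => absurd (show false = true from h) (by decide)) rfl (by decide +kernel) htA hcA
  obtain ⟨hinv, hrel⟩ := CP.relOK hh (inv := TCM12A.inv) (mm := TCM12A.mm) (ex := TCM12A.extra) (by intro x; cases x <;> decide +kernel)
    (by intro x y; cases x <;> cases y <;> decide +kernel) (by decide +kernel)
  exact level (subs := TCM12A.subs) (fun H hH => TCM12A.main hinv hrel.1 hrel.2 hH) (by decide +kernel) (by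
    intro x hx
    fin_cases x
    · exact ⟨.b, rfl⟩
    · exact ⟨.d, rfl⟩
    · exact ⟨.e, rfl⟩
    · exact ⟨.f, rfl⟩)

theorem lvdA {P' : Type} [Group P'] [Finite P'] {f : X → P'} (hiv : ∀ x, CA.iv x = true → f x * f x = 1)
    (ht : ∀ r ∈ rulesA, ev f (r.word nn) = 1) :
    Nat.card (Kl f SA) ≤ 24 * Nat.card (Kl f TA) := by
  have hh : CA.Holds f := holdsD (rules := rulesA) (n := nn) hiv rfl ht (fun z hz => absurd hz (by cases z <;> decide)) (fun z hz => absurd hz (by cases z <;> decide))
  obtain ⟨hinv, hrel⟩ := CP.relOK hh (inv := TCM12A.inv) (mm := TCM12A.mm) (ex := TCM12A.extra) (by intro x; cases x <;> decide +kernel)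
    (by intro x y; cases x <;> cases y <;> decide +kernel) (by decide +kernel)
  exact level (subs := TCM12A.subs) (fun H hH => TCM12A.main hinv hrel.1 hrel.2 hH) (by decide +kernel) (by
    intro x hx
    fin_cases x
    · exact ⟨.b, rfl⟩
    · exact ⟨.d, rfl⟩
    · exact ⟨.e, rfl⟩
    · exact ⟨.f, rfl⟩)

/-- letters of level B -/
def SB : X → Bool := ![true, true, true, false]

/-- lower letters of level B -/
def TB : X → Bool := ![true, false, false, false]

def wdB : TCM11A.Lt → W X
  | .b => [(0, true)]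
  | .bi => [(0, false)]
  | .d => [(1, true)]
  | .di => [(1, false)]
  | .e => [(2, true)]
  | .ei => [(2, false)]

def rulesB : List (Rule X) := [
  .ord 1,
  .conj [(1, true)] [(0, false)] [(0, false), (0, false), (0, false)] 11,
  .conj [(1, true), (1, true)] [(0, true)] [(0, false), (0, false)] 11,
  .conj [(0, false), (2, true)] [(1, false)] [(1, false), (1, false)] 5,
  .conj [(1, false), (0, false), (2, true), (2, true), (1, true)] [(0, false)] [(2, false)] 11,
  .conj [(0, false), (1, true), (2, false), (0, false), (1, false)] [(2, false)] [(2, false)] 11]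

def cenB : TCM11A.Lt → Bool
  | _ => false

def CB : CP X TCM11A.Lt where
  iv := fun _ => false
  wd := wdB
  cen := cenB
  q := 12
  exact := rulesB.map fun r => red (fun _ => false) (r.word nn)

theorem htB : ∀ r ∈ rulesB, ∀ w ∈ r.needs nn, ev g w = 1 := by
  have h : ((rulesB.flatMap (Rule.needs nn)).all fun w => isOne 5 24 (evc 5 24 code codei w)) = true := by decide +kernel
  intro r hr w hw
  exact tr (List.all_eq_true.1 h w (List.mem_flatMap.2 ⟨r, hr, hw⟩))
theorem hcB : ∀ z, CB.cen z = true → ev g (CB.wd z) = 1 := by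
  intro z hz
  refine tr ?_
  cases z <;> first | (exact absurd hz (by decide)) | decide +kernel

theorem lvB {Γ : Type} [Group Γ] [Finite Γ] {σ : Γ →* Cfsg.Spor.M12} {f : X → Γ} (h : Lifts σ 12 nn g f) (hi : Inj g f TB) :
    Nat.card (Kl f SB) ≤ 720 * Nat.card (Kl f TB) := by
  have hh : CB.Holds f := holds h hi rfl (fun _ h => absurd (show false = true from h) (by decide)) rfl (by decide +kernel) htB hcB
  obtain ⟨hinv, hrel⟩ := CP.relOK hh (inv := TCM11A.inv) (mm := TCM11A.mm) (ex := TCM11A.extra) (by intro x; cases x <;> decide +kernel)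
    (by intro x y; cases x <;> cases y <;> decide +kernel) (by decide +kernel)
  exact level (subs := TCM11A.subs) (fun H hH => TCM11A.main hinv hrel.1 hrel.2 hH) (by decide +kernel) (by
    intro x hx
    fin_cases x
    · exact ⟨.b, rfl⟩
    · exact ⟨.d, rfl⟩
    · exact ⟨.e, rfl⟩
    · exact absurd hx (by decide))

theorem lvdB {P' : Type} [Group P'] [Finite P'] {f : X → P'} (hiv : ∀ x, CB.iv x = true → f x * f x = 1)
    (ht : ∀ r ∈ rulesB, ev f (r.word nn) = 1) :
    Nat.card (Kl f SB) ≤ 720 * Nat.card (Kl f TB) := by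
  have hh : CB.Holds f := holdsD (rules := rulesB) (n := nn) hiv rfl ht (fun z hz => absurd hz (by cases z <;> decide)) (fun z hz => absurd hz (by cases z <;> decide))
  obtain ⟨hinv, hrel⟩ := CP.relOK hh (inv := TCM11A.inv) (mm := TCM11A.mm) (ex := TCM11A.extra) (by intro x; cases x <;> decide +kernel)
    (by intro x y; cases x <;> cases y <;> decide +kernel) (by decide +kernel)
  exact level (subs := TCM11A.subs) (fun H hH => TCM11A.main hinv hrel.1 hrel.2 hH) (by decide +kernel) (by
    intro x hx
    fin_cases x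
    · exact ⟨.b, rfl⟩
    · exact ⟨.d, rfl⟩
    · exact ⟨.e, rfl⟩
    · exact absurd hx (by decide))

/-- codes of the permutations of the 24 cosets -/
def pcode : X → ℕ := ![0xa4dc9648a8b8dedb2c46a9e110a880, 0x7d9096c9d09d55415d6788c860b0a0, 0xaa29634af31bca9139ac58491828e0, 0xbbe86492d51b9115c2419a8a763402]
def pcodei : X → ℕ := ![0x7acf7b48856d59350a903222172460, 0x559cc7c8f0bc6624b6954102532c60, 0x8d2f58488372928389960cda57acc0, 0xbc6153a58ab384359a6d250b278101]
theorem pok : ∀ x, okc 5 24 (pcode x) (pcodei x) = true := by intro x; fin_cases x <;> decide +kernel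
noncomputable def pp (x : X) : Equiv.Perm (Fin 24) := ofCode (finCoding 24) 5 (pcode x) (pcodei x) (pok x)
theorem prep (x : X) : Rep (finCoding 24) 5 (pp x) (pcode x) := rep_ofCode _
theorem prepi (x : X) : Rep (finCoding 24) 5 (pp x)⁻¹ (pcodei x) := rep_ofCode_inv _
theorem ptr {w : W X} (h : isOne 5 24 (evc 5 24 pcode pcodei w) = true) : ev pp w = 1 :=
  (Rep.isOne_iff (rep_evc (by norm_num) (g := pp) prep prepi w)).1 h
theorem pt2 {w : W X} (h : (isOne 5 24 (evc 5 24 code codei w) && isOne 5 24 (evc 5 24 pcode pcodei w)) = true) :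
    ev (pr pp g) w = 1 := by
  rw [Bool.and_eq_true] at h
  rw [ev_pr, tr h.1, ptr h.2]
  rfl
def wz : W X := [(2, false), (0, true), (2, false), (3, false), (3, false), (0, true), (0, true), (0, true)]
def wc : W X := [(0, false), (2, true)]
def zw : W X := [(0, true), (3, false), (0, true), (3, false)]
theorem gen : Kl g SA = ⊤ := by
  rw [eq_top_iff, ← H40.OutM12.gen, closure_le]
  intro x hx
  rcases hx with rfl | rfl | rfl | rfl
  · exact mem_Kl (f := g) (x := 0) (by decide)
  · exact mem_Kl (f := g) (x := 1) (by decide)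
  · rw [show H40.OutM12.cG = ev g wc from eq_ev_of_code hn24 (g := g) rep_c rep_ci (p := H40.OutM12.cG) H40.OutM12.rep_c (by decide +kernel)]
    exact ev_mem_Kl (by decide)
  · rw [show H40.OutM12.zG = ev g wz from eq_ev_of_code hn24 (g := g) rep_c rep_ci (p := H40.OutM12.zG) H40.OutM12.rep_z (by decide +kernel)]
    exact ev_mem_Kl (by decide)
theorem card_M12 : Nat.card Cfsg.Spor.M12 = 95040 := H40.OutM12.card_M12
theorem card_top : Nat.card (Kl g SA) = 95040 := by
  rw [gen, Nat.card_congr (Subgroup.topEquiv (G := Cfsg.Spor.M12)).toEquiv, card_M12]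
theorem card_low : 7920 ≤ Nat.card (Kl g SB) := by
  have h1 : 7920 ≤ Nat.card ((Kl g SB).map (Cfsg.Spor.M12).subtype) := by
    refine cert_spec (E := E24) H40.OutM12.hcert' ?_
    intro x hx
    simp only [List.mem_cons, List.not_mem_nil, or_false] at hx
    rcases hx with rfl | rfl | rfl
    · exact ⟨perm 0, ⟨g 0, mem_Kl (by decide), rfl⟩, rep_c 0⟩
    · exact ⟨perm 1, ⟨g 1, mem_Kl (by decide), rfl⟩, rep_c 1⟩
    · refine ⟨H40.OutM12.c, ⟨ev g wc, ev_mem_Kl (by decide), ?_⟩, H40.OutM12.rep_c⟩
      rw [← show H40.OutM12.cG = ev g wc from eq_ev_of_code hn24 (g := g) rep_c rep_ci (p := H40.OutM12.cG) H40.OutM12.rep_c (by decide +kernel)]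
      rfl
  rwa [Nat.card_congr ((Kl g SB).equivMapOfInjective _ (Cfsg.Spor.M12).subtype_injective).toEquiv]
theorem bound (Γ : Type) [Group Γ] [Finite Γ] (σ : Γ →* Cfsg.Spor.M12) (f : X → Γ) (h : Lifts σ 12 nn g f) :
    Nat.card (Kl f SA) ≤ 190080 := by
  have e1 : Kl f TA = Kl f SB := by congr 1
  have e2 : Kl g TA = Kl g SB := by congr 1
  have c1 : Nat.card (Kl f TB) ≤ 11 := card_Kl_one (x0 := 0) (by decide) (by norm_num) (h.ord 0)
  have f2 := lvB h (h.inj_one hn (x0 := 0) (by decide))
  have i1 : Inj g f TA := h.inj (by rw [e1, e2]; have := card_low; omega)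
  have f1 := lvA h i1
  rw [e1] at f1
  omega
theorem noExt4 : NoExt Cfsg.Spor.M12 4 := noExt_of_bound (q := 12) (by norm_num) hord hn gen bound (by rw [card_M12]; norm_num)
theorem noExt3 : NoExt Cfsg.Spor.M12 3 := noExt_of_bound (q := 12) (by norm_num) hord hn gen bound (by rw [card_M12]; norm_num)
theorem pord (x : X) : pp x ^ nn x = 1 := by
  have h : ∀ x, isOne 5 24 (evc 5 24 pcode pcodei (rep [(x, true)] (nn x))) = true := by intro x; fin_cases x <;> decide +kernel
  have h1 := ptr (h x)
  rw [ev_rep] at h1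
  change (pp x * 1) ^ nn x = 1 at h1
  rwa [mul_one] at h1
theorem htAd : ∀ r ∈ rulesA, ev (pr pp g) (r.word nn) = 1 := by
  have h : (rulesA.all fun r => isOne 5 24 (evc 5 24 code codei (r.word nn)) && isOne 5 24 (evc 5 24 pcode pcodei (r.word nn))) = true := by decide +kernel
  intro r hr
  exact pt2 (List.all_eq_true.1 h r hr)
theorem htBd : ∀ r ∈ rulesB, ev (pr pp g) (r.word nn) = 1 := by
  have h : (rulesB.all fun r => isOne 5 24 (evc 5 24 code codei (r.word nn)) && isOne 5 24 (evc 5 24 pcode pcodei (r.word nn))) = true := by decide +kernel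
  intro r hr
  exact pt2 (List.all_eq_true.1 h r hr)
theorem card_E : Nat.card (EE pp g SA) ≤ 2 * Nat.card Cfsg.Spor.M12 := by
  have f1 := lvdA (f := pr pp g) (fun x h => absurd (show false = true from h) (by decide)) htAd
  have f2 := lvdB (f := pr pp g) (fun x h => absurd (show false = true from h) (by decide)) htBd
  have e1 : Kl (pr pp g) TA = Kl (pr pp g) SB := by congr 1
  have c1 : Nat.card (Kl (pr pp g) TB) ≤ 11 := card_Kl_one (x0 := 0) (by decide) (by norm_num) (by
    apply Prod.ext
    · exact pord 0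
    · exact hord 0)
  rw [e1] at f1
  rw [card_M12]
  change Nat.card (Kl (pr pp g) SA) ≤ _
  omega
theorem zw_order : orderOf (ev pp zw) = 2 := by
  apply orderOf_eq_prime
  · rw [← ev_rep]
    exact ptr (by decide +kernel)
  · intro h
    have := (Rep.isOne_iff (rep_evc (by norm_num) (g := pp) prep prepi zw)).2 h
    exact absurd this (by decide +kernel)
theorem zw_comm (x : X) : pp x * ev pp zw = ev pp zw * pp x := by
  have h : ∀ x, isOne 5 24 (evc 5 24 pcode pcodei ([(x, true)] ++ (zw ++ ([(x, false)] ++ winv zw)))) = true := by intro x; fin_cases x <;> decide +kernel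
  have h1 := ptr (h x)
  rw [ev_append, ev_append, ev_append, ev_winv] at h1
  change (pp x * 1) * (ev pp zw * (((pp x)⁻¹ * 1) * (ev pp zw)⁻¹)) = 1 at h1
  rw [mul_one, mul_one, ← mul_assoc, ← mul_assoc, mul_inv_eq_one, mul_inv_eq_iff_eq_mul] at h1
  exact h1
theorem perf : commutator Cfsg.Spor.M12 = ⊤ := by
  refine perfect_of (n := nn) gen hord [(0, [(1, true), (0, false), (1, false), (0, true), (0, true), (0, true)]), (1, [(3, true), (1, true), (0, false), (3, false), (1, true), (0, true), (0, true)]), (2, [(1, false), (0, false), (2, true), (2, true), (1, true), (0, false), (1, false), (2, false), (2, false), (0, true), (1, true), (2, true)]), (3, [(3, true), (1, false), (3, true), (1, true), (3, false), (1, true)])] (by decide +kernel) ?_ ?_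
  · intro a ha
    fin_cases ha <;> exact tr (by decide +kernel)
  · intro x _
    fin_cases x <;> decide
theorem ex : ∃ (Γ : Type) (_ : Group Γ) (_ : Finite Γ) (σ : Γ →* Cfsg.Spor.M12), Cfsg.IsStemExtension σ ∧
      Nonempty (σ.ker ≃* Multiplicative (ZMod 2)) :=
  exists_cover (p := pp) (g := g) (S := SA) (n := nn) (by norm_num) gen perf card_E zw (by decide)
    (tr (by decide +kernel)) zw_order (fun x _ => zw_comm x) (fun x _ => pord x) (fun x _ => hord x) (fun x _ => by fin_cases x <;> decide)
theorem mult : Cfsg.HasCyclicSchurMultiplier Cfsg.Spor.M12 2 := by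
  refine hasCyclic_list (by norm_num) ex [(2, 6), (3, 3), (5, 1), (11, 1)] (by decide +kernel) (by rw [card_M12]; norm_num) ?_
  intro a ha
  fin_cases ha
  · exact Or.inr (Or.inr ⟨noExt4, by decide +kernel⟩)
  · exact Or.inl noExt3
  all_goals exact Or.inr (Or.inl (by rw [card_M12]; norm_num))

end H35.MulM12
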