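import Mathlib
import Cfsg.Agent.Lib.H35.StemNet
import Cfsg.Agent.Lib.H35.StemRule

/-!
# Permutation groups of covers given by networks
-/

set_option autoImplicit false

namespace H35.Stem

open Subgroup H35.Net H35.TC

/-- permutations supported below `2 ^ k` -/
def FS (k : ℕ) : Subgroup (Equiv.Perm ℕ) where
  carrier := {π | ∀ b, 2 ^ k ≤ b → π b = b}
  one_mem' := fun _ _ => rfl
  mul_mem' := by
    intro a b ha hb x hx
    rw [Equiv.Perm.mul_apply, hb x hx, ha x hx]
  inv_mem' := by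
    intro a ha x hx
    rw [Equiv.Perm.inv_eq_iff_eq, ha x hx]

theorem FS_lt {k : ℕ} (π : FS k) {b : ℕ} (hb : b < 2 ^ k) : (π : Equiv.Perm ℕ) b < 2 ^ k := by
  by_contra h
  have h1 := π.2 _ (not_lt.1 h)
  have h2 := (π : Equiv.Perm ℕ).injective h1
  omega

instance FS_finite (k : ℕ) : Finite (FS k) := by
  refine Finite.of_injective (fun π : FS k => fun b : Fin (2 ^ k) => (⟨(π : Equiv.Perm ℕ) b, FS_lt π b.2⟩ : Fin (2 ^ k))) ?_
  intro π ρ h
  apply Subtype.ext
  ext b
  rcases lt_or_ge b (2 ^ k) with hb | hb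
  · have := congrFun h ⟨b, hb⟩
    exact congrArg Fin.val this
  · rw [π.2 b hb, ρ.2 b hb]

section

variable {X : Type}

/-- the permutations of the letters, given by networks -/
theorem exists_letNet {k : ℕ} {netX : X × Bool → ℕ → ℕ} (hbx : ∀ a, ∃ ρ : Equiv.Perm ℕ, BP (2 ^ k) (netX a) ρ)
    (h1 : ∀ x, chkW netX k [(x, true), (x, false)] 1 0 k = true) :
    ∃ p : X → FS k, LetNet k (FS k).subtype p netX := by
  choose ρ hρ using hbx
  have key : ∀ x, ρ (x, false) = (ρ (x, true))⁻¹ := by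
    intro x
    have e1 := pow_eq_one_of_chk hρ (h1 x)
    rw [_root_.pow_one] at e1
    simp only [List.map_cons, List.map_nil, List.prod_cons, List.prod_nil, mul_one] at e1
    exact eq_inv_of_mul_eq_one_right e1
  refine ⟨fun x => ⟨ρ (x, true), (hρ (x, true)).fix⟩, ?_⟩
  rintro ⟨x, b⟩
  cases b
  · change BP (2 ^ k) (netX (x, false)) ((ρ (x, true))⁻¹)
    rw [← key]
    exact hρ _
  · exact hρ _

theorem LetNet.ne_one {G : Type} [Group G] {k : ℕ} {φ : G →* Equiv.Perm ℕ} {g : X → G} {netX : X × Bool → ℕ → ℕ}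
    (h : LetNet k φ g netX) {w : W X} {V : ℕ} (hc : Nat.beq (appF netX w V) V = false) : ev g w ≠ 1 := by
  intro he
  have h1 := app_BP (net := netX) (π := fun a => φ (el g a)) h w
  have h2 : (List.map (fun a => φ (el g a)) w).prod = 1 := by
    have : (List.map (fun a => φ (el g a)) w).prod = φ (ev g w) := by
      rw [ev, map_list_prod, List.map_map]
      rfl
    rw [this, he, map_one]
  rw [h2] at h1
  have h3 : app netX w V = V := by
    apply Nat.eq_of_testBit_eq
    intro b
    rw [h1.bit]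
    rfl
  rw [appF_eq, h3, Nat.beq_refl] at hc
  exact absurd hc (by decide)

theorem LetNet.comm {G : Type} [Group G] {k : ℕ} {φ : G →* Equiv.Perm ℕ} {g : X → G} {netX : X × Bool → ℕ → ℕ}
    (h : LetNet k φ g netX) (hφ : Function.Injective φ) {w : W X} {x : X}
    (hc : chkW netX k ((x, true) :: (w ++ ((x, false) :: winv w))) 1 0 k = true) :
    g x * ev g w = ev g w * g x := by
  have h1 := h.ev_one hφ hc
  rw [ev_cons, ev_append, ev_cons, ev_winv] at h1
  change g x * (ev g w * ((g x)⁻¹ * (ev g w)⁻¹)) = 1 at h1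
  rw [← mul_assoc, ← mul_assoc, mul_inv_eq_one, mul_inv_eq_iff_eq_mul] at h1
  exact h1

end

end H35.Stem
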