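import Cfsg.Agent.Lib.H35.TCM22A.Snd
import Cfsg.Agent.Lib.H35.TCM22A.R0

/-!  -/

set_option autoImplicit false
set_option maxRecDepth 100000
set_option linter.all false
namespace H35.TCM22A
open H35.TC
theorem cnt_live : cntB liveP 14 0 = 10560 := by
  have h : Nat.beq (cntB liveP 14 0) 10560 = true := by decide +kernel
  exact eqOfBeq h
theorem all_nodes : ∀ u, u < M → chkP u = true := by
  intro u hu
  have hu' : u < 13791 := hu
  rcases Nat.lt_or_ge u 512 with h | h
  · exact allB_spec _ _ _ r_0 u (by omega) (by omega)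
  rcases Nat.lt_or_ge u 1024 with h | h
  · exact allB_spec _ _ _ r_1 u (by omega) (by omega)
  rcases Nat.lt_or_ge u 1536 with h | h
  · exact allB_spec _ _ _ r_2 u (by omega) (by omega)
  rcases Nat.lt_or_ge u 2048 with h | h
  · exact allB_spec _ _ _ r_3 u (by omega) (by omega)
  rcases Nat.lt_or_ge u 2560 with h | h
  · exact allB_spec _ _ _ r_4 u (by omega) (by omega)
  rcases Nat.lt_or_ge u 3072 with h | h
  · exact allB_spec _ _ _ r_5 u (by omega) (by omega)
  rcases Nat.lt_or_ge u 3584 with h | h
  · exact allB_spec _ _ _ r_6 u (by omega) (by omega)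
  rcases Nat.lt_or_ge u 4096 with h | h
  · exact allB_spec _ _ _ r_7 u (by omega) (by omega)
  rcases Nat.lt_or_ge u 4608 with h | h
  · exact allB_spec _ _ _ r_8 u (by omega) (by omega)
  rcases Nat.lt_or_ge u 5120 with h | h
  · exact allB_spec _ _ _ r_9 u (by omega) (by omega)
  rcases Nat.lt_or_ge u 5632 with h | h
  · exact allB_spec _ _ _ r_10 u (by omega) (by omega)
  rcases Nat.lt_or_ge u 6144 with h | h
  · exact allB_spec _ _ _ r_11 u (by omega) (by omega)
  rcases Nat.lt_or_ge u 6656 with h | h
  · exact allB_spec _ _ _ r_12 u (by omega) (by omega)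
  rcases Nat.lt_or_ge u 7168 with h | h
  · exact allB_spec _ _ _ r_13 u (by omega) (by omega)
  rcases Nat.lt_or_ge u 7680 with h | h
  · exact allB_spec _ _ _ r_14 u (by omega) (by omega)
  rcases Nat.lt_or_ge u 8192 with h | h
  · exact allB_spec _ _ _ r_15 u (by omega) (by omega)
  rcases Nat.lt_or_ge u 8704 with h | h
  · exact allB_spec _ _ _ r_16 u (by omega) (by omega)
  rcases Nat.lt_or_ge u 9216 with h | h
  · exact allB_spec _ _ _ r_17 u (by omega) (by omega)
  rcases Nat.lt_or_ge u 9728 with h | h
  · exact allB_spec _ _ _ r_18 u (by omega) (by omega)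
  rcases Nat.lt_or_ge u 10240 with h | h
  · exact allB_spec _ _ _ r_19 u (by omega) (by omega)
  rcases Nat.lt_or_ge u 10752 with h | h
  · exact allB_spec _ _ _ r_20 u (by omega) (by omega)
  rcases Nat.lt_or_ge u 11264 with h | h
  · exact allB_spec _ _ _ r_21 u (by omega) (by omega)
  rcases Nat.lt_or_ge u 11776 with h | h
  · exact allB_spec _ _ _ r_22 u (by omega) (by omega)
  rcases Nat.lt_or_ge u 12288 with h | h
  · exact allB_spec _ _ _ r_23 u (by omega) (by omega)
  rcases Nat.lt_or_ge u 12800 with h | h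
  · exact allB_spec _ _ _ r_24 u (by omega) (by omega)
  rcases Nat.lt_or_ge u 13312 with h | h
  · exact allB_spec _ _ _ r_25 u (by omega) (by omega)
  rcases Nat.lt_or_ge u 13824 with h | h
  · exact allB_spec _ _ _ r_26 u (by omega) (by omega)
  omega
/-- **certificate**: in any group `G` with elements `g` satisfying the relators `rels`, a subgroup `H` containing
the words `subs` has relative index at most 10560 in the subgroup generated by `g`. -/
theorem main {G : Type} [Group G] {g : Lt → G} {H : Subgroup G} (hinv : ∀ x, g (inv x) = (g x)⁻¹)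
    (hp : ∀ x y, (g x * g y) ^ mm x y = 1) (he : ∀ p ∈ extra, ((p.1.map g).prod) ^ p.2 = 1)
    (hH : ∀ r ∈ subs, (r.map g).prod ∈ H) :
    H.relIndex (Subgroup.closure (Set.range g)) ≤ 10560 ∧ H.relIndex (Subgroup.closure (Set.range g)) ≠ 0 :=
  final hinv (mkRels_ok hp he) hH all_nodes cnt_live
end H35.TCM22A
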