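import Mathlib
import Cfsg.Agent.Lib.H35.StemFS
import Cfsg.Agent.Lib.H35.StemPerm
import Cfsg.Agent.Lib.H35.StemPerf
import Cfsg.Agent.Lib.H35.NXM22A
import Cfsg.Agent.Lib.H40.OutM22
import Cfsg.Agent.Lib.H35.TCM22A
import Cfsg.Agent.Lib.H35.TCM22C
import Cfsg.Agent.Lib.H35.TCM22B

set_option autoImplicit false
set_option maxRecDepth 100000
set_option linter.all false
set_option Elab.async false
namespace H35.MulM22A
open Subgroup H35.Stem H35.TC H35.Net H40.PermCode H40.MathieuBase H40.OutM22
abbrev X := Fin 3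
/-- exponents of the letters -/
def nn : X → ℕ := ![7, 3, 3]
/-- codes -/
def code : X → ℕ := ![0xbb6ab70a044055629a8c8bc73924e0, 0xbd9f49392134da83b06a2d5648c040, 0xba6a394670089eb228ce3da8c2a1a0]
def codei : X → ℕ := ![0xbb2a920cf134ec8a344f0a9702c9c0, 0xbd8d474c62ac9aa2a22c5bce448600, 0xb9aa58ce506a02462ac23a46ba39e0]
theorem okk : ∀ x, okc 5 24 (code x) (codei x) = true := by intro x; fin_cases x <;> decide +kernel
noncomputable def perm (x : X) : Equiv.Perm Cfsg.GolayPt := ofCode E24 5 (code x) (codei x) (okk x)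
theorem rep_x (x : X) : Rep E24 5 (perm x) (code x) := rep_ofCode _
theorem rep_xi (x : X) : Rep E24 5 (perm x)⁻¹ (codei x) := rep_ofCode_inv _
theorem mem (x : X) : perm x ∈ Cfsg.Spor.M22 := by
  refine mem22_of_rep (rep_x x) ?_ ?_ ?_ <;> fin_cases x <;> decide +kernel
noncomputable def g (x : X) : Cfsg.Spor.M22 := ⟨perm x, mem x⟩
noncomputable def ck (w : W X) (m : ℕ) : Bool := isOne 5 24 (evc 5 24 code codei (rep w m))
theorem tr (w : W X) (m : ℕ) (h : ck w m = true) : (ev g w) ^ m = 1 := by
  rw [← ev_rep]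
  exact ev_one_of_code hn24 (g := g) rep_x rep_xi h
theorem tr1 {w : W X} (h : ck w 1 = true) : ev g w = 1 := by
  have := tr w 1 h
  rwa [pow_one] at this
theorem hord (x : X) : g x ^ nn x = 1 := by
  have h : ∀ x, ck [(x, true)] (nn x) = true := by intro x; fin_cases x <;> decide +kernel
  have h1 := tr _ _ (h x)
  change (g x * 1) ^ nn x = 1 at h1
  rwa [mul_one] at h1
theorem hn : ∀ x, Nat.Coprime (nn x) 8 := by decide
/-- letters of level A -/
def SA : X → Bool := ![true, true, true]

/-- lower letters of level A -/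
def TA : X → Bool := ![true, true, false]

def wdA : TCM22A.Lt → W X
  | .a => [(0, true)]
  | .ai => [(0, false)]
  | .b => [(1, true)]
  | .bi => [(1, false)]
  | .d => [(2, true)]
  | .di => [(2, false)]

def rulesA_0 : List (Rule X) := [
  .ord 2,
  .conj [(2, true)] [(0, false), (1, true), (0, true), (0, true)] [(0, false), (0, false), (0, false), (1, false)] 3,
  .conj [(1, true), (0, false), (1, true), (2, true)] [(1, true), (1, true), (0, true), (1, false)] [(2, false)] 3,
  .conj [(2, true), (0, true), (2, true), (1, false), (0, false)] [(2, true)] [(1, false), (0, false)] 3,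
  .conj [(2, true), (1, false), (2, false), (0, false), (1, true)] [(2, false)] [(0, true), (1, false), (0, false)] 3,
  .conj [(2, true), (1, true), (0, true), (1, false), (2, true)] [(1, false)] [(1, false), (0, true), (1, false), (0, false)] 3]

def rulesA_1 : List (Rule X) := [
  .ord 1,
  .low [(0, true), (1, true), (0, true), (1, true), (0, true), (1, true)],
  .low [(0, true), (0, true), (1, true), (0, false), (1, true), (0, false), (1, false), (0, true), (1, false)]]

def rulesA : List (Rule X) := rulesA_0 ++ rulesA_1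

def cenA : TCM22A.Lt → Bool
  | _ => false

def CA : CP X TCM22A.Lt where
  iv := fun _ => false
  wd := wdA
  cen := cenA
  q := 8
  exact := rulesA.map fun r => nrm (fun _ => false) (red (fun _ => false) (r.word nn))

theorem tkA_0 : (rulesA_0.all (Rule.chk nn ck)) = true := by decide +kernel

theorem tkA_1 : (rulesA_1.all (Rule.chk nn ck)) = true := by decide +kernel

theorem htA : ∀ r ∈ rulesA, ∀ w ∈ r.needs nn, ev g w = 1 := by
  intro r hr
  refine Rule.needs_of_chk tr ?_
  simp only [rulesA, List.mem_append] at hr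
  rcases hr with hr | hr
  · exact List.all_eq_true.1 tkA_0 r hr
  · exact List.all_eq_true.1 tkA_1 r hr

theorem hcA : ∀ z, CA.cen z = true → ev g (CA.wd z) = 1 := by
  intro z hz
  refine tr1 ?_
  cases z <;> first | (exact absurd hz (by decide)) | decide +kernel

theorem lvA {Γ : Type} [Group Γ] [Finite Γ] {σ : Γ →* Cfsg.Spor.M22} {f : X → Γ} (h : Lifts σ 8 nn g f) (hi : Inj g f TA) :
    Nat.card (Kl f SA) ≤ 10560 * Nat.card (Kl f TA) := by
  have hh : CA.Holds f := holdsF (Ss := [TA]) h (by intro S hS; simp only [List.mem_singleton] at hS; subst hS; exact hi) rfl (fun _ h => absurd (show false = true from h) (by decide)) rfl (by decide +kernel) htA hcA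
  obtain ⟨hinv, hrel⟩ := CP.relOK hh (inv := TCM22A.inv) (mm := TCM22A.mm) (ex := TCM22A.extra) (by intro x; cases x <;> decide +kernel)
    (by intro x y; cases x <;> cases y <;> decide +kernel) (by decide +kernel)
  exact level (subs := TCM22A.subs) (fun H hH => TCM22A.main hinv hrel.1 hrel.2 hH) (by decide +kernel) (by
    intro x hx
    fin_cases x
    · exact ⟨.a, rfl⟩
    · exact ⟨.b, rfl⟩
    · exact ⟨.d, rfl⟩)

theorem lvdA {P' : Type} [Group P'] [Finite P'] {f : X → P'} (hiv : ∀ x, CA.iv x = true → f x * f x = 1)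
    (ht : ∀ r ∈ rulesA, ev f (r.word nn) = 1) :
    Nat.card (Kl f SA) ≤ 10560 * Nat.card (Kl f TA) := by
  have hh : CA.Holds f := holdsDF (rules := rulesA) (n := nn) hiv rfl ht (fun z hz => absurd hz (by cases z <;> decide)) (fun z hz => absurd hz (by cases z <;> decide))
  obtain ⟨hinv, hrel⟩ := CP.relOK hh (inv := TCM22A.inv) (mm := TCM22A.mm) (ex := TCM22A.extra) (by intro x; cases x <;> decide +kernel)
    (by intro x y; cases x <;> cases y <;> decide +kernel) (by decide +kernel)
  exact level (subs := TCM22A.subs) (fun H hH => TCM22A.main hinv hrel.1 hrel.2 hH) (by decide +kernel) (by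
    intro x hx
    fin_cases x
    · exact ⟨.a, rfl⟩
    · exact ⟨.b, rfl⟩
    · exact ⟨.d, rfl⟩)
/-- letters of level C -/
def SC : X → Bool := ![true, true, false]

/-- lower letters of level C -/
def TC : X → Bool := ![true, false, false]

def wdC : TCM22C.Lt → W X
  | .a => [(0, true)]
  | .ai => [(0, false)]
  | .b => [(1, true)]
  | .bi => [(1, false)]

def rulesC_0 : List (Rule X) := [
  .ord 1,
  .conj [(1, true), (0, false), (1, true)] [(0, false)] [(0, false), (0, false)] 7]

def rulesC : List (Rule X) := rulesC_0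

def cenC : TCM22C.Lt → Bool
  | _ => false

def CC : CP X TCM22C.Lt where
  iv := fun _ => false
  wd := wdC
  cen := cenC
  q := 8
  exact := rulesC.map fun r => nrm (fun _ => false) (red (fun _ => false) (r.word nn))

theorem tkC_0 : (rulesC_0.all (Rule.chk nn ck)) = true := by decide +kernel

theorem htC : ∀ r ∈ rulesC, ∀ w ∈ r.needs nn, ev g w = 1 := by
  intro r hr
  exact Rule.needs_of_chk tr (List.all_eq_true.1 tkC_0 r hr)

theorem hcC : ∀ z, CC.cen z = true → ev g (CC.wd z) = 1 := by
  intro z hz
  refine tr1 ?_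
  cases z <;> first | (exact absurd hz (by decide)) | decide +kernel

theorem lvC {Γ : Type} [Group Γ] [Finite Γ] {σ : Γ →* Cfsg.Spor.M22} {f : X → Γ} (h : Lifts σ 8 nn g f) (hi : Inj g f TC) :
    Nat.card (Kl f SC) ≤ 24 * Nat.card (Kl f TC) := by
  have hh : CC.Holds f := holdsF (Ss := [TC]) h (by intro S hS; simp only [List.mem_singleton] at hS; subst hS; exact hi) rfl (fun _ h => absurd (show false = true from h) (by decide)) rfl (by decide +kernel) htC hcC
  obtain ⟨hinv, hrel⟩ := CP.relOK hh (inv := TCM22C.inv) (mm := TCM22C.mm) (ex := TCM22C.extra) (by intro x; cases x <;> decide +kernel)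
    (by intro x y; cases x <;> cases y <;> decide +kernel) (by decide +kernel)
  exact level (subs := TCM22C.subs) (fun H hH => TCM22C.main hinv hrel.1 hrel.2 hH) (by decide +kernel) (by
    intro x hx
    fin_cases x
    · exact ⟨.a, rfl⟩
    · exact ⟨.b, rfl⟩
    · exact absurd hx (by decide))

theorem lvdC {P' : Type} [Group P'] [Finite P'] {f : X → P'} (hiv : ∀ x, CC.iv x = true → f x * f x = 1)
    (ht : ∀ r ∈ rulesC, ev f (r.word nn) = 1) :
    Nat.card (Kl f SC) ≤ 24 * Nat.card (Kl f TC) := by
  have hh : CC.Holds f := holdsDF (rules := rulesC) (n := nn) hiv rfl ht (fun z hz => absurd hz (by cases z <;> decide)) (fun z hz => absurd hz (by cases z <;> decide))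
  obtain ⟨hinv, hrel⟩ := CP.relOK hh (inv := TCM22C.inv) (mm := TCM22C.mm) (ex := TCM22C.extra) (by intro x; cases x <;> decide +kernel)
    (by intro x y; cases x <;> cases y <;> decide +kernel) (by decide +kernel)
  exact level (subs := TCM22C.subs) (fun H hH => TCM22C.main hinv hrel.1 hrel.2 hH) (by decide +kernel) (by
    intro x hx
    fin_cases x
    · exact ⟨.a, rfl⟩
    · exact ⟨.b, rfl⟩
    · exact absurd hx (by decide))
theorem w_uG : H40.OutM22.uG = ev g [(0, true), (0, true), (1, true), (0, false), (2, false), (0, true), (2, true), (0, false), (0, false), (1, true)] :=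
  eq_ev_of_code hn24 (g := g) rep_x rep_xi (p := H40.OutM22.uG) H40.MathieuElts.rep_u (by decide +kernel)
theorem w_vG : H40.OutM22.vG = ev g [(0, true), (2, false), (1, true), (2, true), (0, false), (1, false), (0, false), (0, false), (2, false)] :=
  eq_ev_of_code hn24 (g := g) rep_x rep_xi (p := H40.OutM22.vG) H40.MathieuElts.rep_v (by decide +kernel)
theorem w_cG : H40.OutM22.cG = ev g [(0, true), (1, false), (2, false), (0, false), (1, true), (0, true), (2, false), (0, false), (1, false), (0, true)] :=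
  eq_ev_of_code hn24 (g := g) rep_x rep_xi (p := H40.OutM22.cG) H40.OutM22.rep_c (by decide +kernel)
theorem gen : Kl g SA = ⊤ := by
  rw [eq_top_iff, ← H40.OutM22.gen, closure_le]
  intro x hx
  rcases hx with rfl | rfl | rfl
  · rw [w_uG]; exact ev_mem_Kl (by decide)
  · rw [w_vG]; exact ev_mem_Kl (by decide)
  · rw [w_cG]; exact ev_mem_Kl (by decide)
theorem card_top : Nat.card (Kl g SA) = 443520 := by
  rw [gen, Nat.card_congr (Subgroup.topEquiv (G := Cfsg.Spor.M22)).toEquiv, H40.OutM22.card_M22]
theorem hcertK : cert 5 24 [(0xbb5e79c024509965d68849a3270ca0, 1, 0), (0xbb1eb10c92416ad898f60a9d385120, 0, 1), (0xbd5f12d253b24cc7296d2220219c20, 0, 2), (0xbb50b106877b94c8da461d4b381120, 3, 4), (0xba911710f3326cd2d56ca3e020c860, 0, 4), (0xbd9054ca6260eaa83e2d3982e22e80, 0, 5), (0xbd98590e34326ad3a88f0a20e98960, 0, 7), (0xbd58748a8e7ad56820ad89a7219020, 0, 7), (0xbaaa50a49361ccd1bd768224e15220, 8, 8), (0xb9aa33d26eb45ea920ad230414ae00, 0, 9), (0xb9ac3a44b061ded22928156419b960, 0, 11), (0xbbec43ba0142d469546d2b2748a440,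 0, 11), (0xbbd0472c6261d4d29a359da5480520, 0, 13), (0xbbd8459e29b39559b606920b418820, 0, 14)] [code 0, code 1] [(1, [14, 15], [(1, 0), (1, 1), (7, 0), (7, 1), (2, 0), (2, 1), (5, 0), (5, 1), (9, 0), (16, 0), (3, 0), (4, 0), (18, 1)]), (2, [11, 6], [(2, 0), (2, 1), (7, 1), (4, 1), (17, 1)]), (4, [0], [(4, 0)])] 168 = true := by decide +kernel
theorem card_low : 168 ≤ Nat.card (Kl g SC) := by
  have h1 : 168 ≤ Nat.card ((Kl g SC).map (Cfsg.Spor.M22).subtype) := by
    refine cert_spec (E := E24) hcertK ?_
    intro x hx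
    simp only [List.mem_cons, List.not_mem_nil, or_false] at hx
    rcases hx with rfl | rfl
    · exact ⟨perm 0, ⟨g 0, mem_Kl (by decide), rfl⟩, rep_x 0⟩
    · exact ⟨perm 1, ⟨g 1, mem_Kl (by decide), rfl⟩, rep_x 1⟩
  rwa [Nat.card_congr ((Kl g SC).equivMapOfInjective _ (Cfsg.Spor.M22).subtype_injective).toEquiv]
theorem bound (Γ : Type) [Group Γ] [Finite Γ] (σ : Γ →* Cfsg.Spor.M22) (f : X → Γ) (h : Lifts σ 8 nn g f) :
    Nat.card (Kl f SA) ≤ 1774080 := by
  have g0 := lvA (Lifts.self hord) (Inj.self TA)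
  have g1 := lvC (Lifts.self hord) (Inj.self TC)
  rw [card_top] at g0
  have e0 : Kl f TA = Kl f SC := by congr 1
  have e0' : Kl g TA = Kl g SC := by congr 1
  rw [e0'] at g0
  have c1 : Nat.card (Kl f TC) ≤ 7 := card_Kl_one (x0 := 0) (by decide) (by norm_num) (h.ord 0)
  have c1' : Nat.card (Kl g TC) ≤ 7 := card_Kl_one (x0 := 0) (by decide) (by norm_num) (hord 0)
  have f1 := lvC h (h.inj_one' (x0 := 0) (by decide) (by decide))
  have k168 := card_low
  have i0 : Inj g f TA := h.inj (by rw [e0, e0']; omega)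
  have f0 := lvA h i0
  rw [e0] at f0
  omega
theorem noExt8 : NoExt Cfsg.Spor.M22 8 := noExt_of_bound (q := 8) (by norm_num) hord hn gen bound (by rw [card_M22]; norm_num)
/-! the cover with centre of order four -/
theorem exp : ∃ p : X → FS 14, LetNet 14 (FS 14).subtype p NXM22A.netX := exists_letNet NXM22A.bpx NXM22A.invx
noncomputable def pp : X → FS 14 := exp.choose
theorem lnp : LetNet 14 (FS 14).subtype pp NXM22A.netX := exp.choose_spec
noncomputable def ckp (w : W X) (m : ℕ) : Bool := chkW NXM22A.netX 14 w m 0 14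
theorem trp (w : W X) (m : ℕ) (h : ckp w m = true) : (ev pp w) ^ m = 1 := lnp.pow_one (FS 14).subtype_injective h
theorem pord (x : X) : pp x ^ nn x = 1 := by
  have h : ∀ x, ckp [(x, true)] (nn x) = true := by intro x; fin_cases x <;> decide +kernel
  have h1 := trp _ _ (h x)
  change (pp x * 1) ^ nn x = 1 at h1
  rwa [mul_one] at h1
theorem pt2 {w : W X} (h : (ck w 1 && ckp w 1) = true) : ev (pr pp g) w = 1 := by
  rw [Bool.and_eq_true] at h
  rw [ev_pr, tr1 h.1, show ev pp w = 1 by simpa using trp w 1 h.2]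
  rfl
def zw : W X := [(0, true), (2, true), (0, true), (2, true), (0, true), (2, true), (0, true), (2, true), (0, true), (2, true)]
theorem zw_order : orderOf (ev pp zw) = 4 := by
  have h := orderOf_eq_prime_pow (x := ev pp zw) (p := 2) (n := 1) ?_ ?_
  · simpa using h
  · rw [show (2 : ℕ) ^ 1 = 2 by norm_num, ← ev_rep]
    exact lnp.ne_one (V := 1) (by decide +kernel)
  · rw [show (2 : ℕ) ^ (1 + 1) = 4 by norm_num]
    exact trp zw 4 (by decide +kernel)
theorem zw_comm (x : X) : pp x * ev pp zw = ev pp zw * pp x :=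
  lnp.comm (FS 14).subtype_injective (by fin_cases x <;> decide +kernel)
theorem htdA : ∀ r ∈ rulesA, ev (pr pp g) (r.word nn) = 1 := by
  intro r hr
  have h : ∀ r ∈ rulesA, (ck (r.word nn) 1 && ckp (r.word nn) 1) = true := by
    rw [← List.all_eq_true]
    decide +kernel
  exact pt2 (h r hr)
theorem htdC : ∀ r ∈ rulesC, ev (pr pp g) (r.word nn) = 1 := by
  intro r hr
  have h : ∀ r ∈ rulesC, (ck (r.word nn) 1 && ckp (r.word nn) 1) = true := by
    rw [← List.all_eq_true]
    decide +kernel
  exact pt2 (h r hr)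
theorem card_E : Nat.card (EE pp g SA) ≤ 4 * Nat.card Cfsg.Spor.M22 := by
  have f0 := lvdA (f := pr pp g) (fun _ h => absurd (show false = true from h) (by decide)) htdA
  have f1 := lvdC (f := pr pp g) (fun _ h => absurd (show false = true from h) (by decide)) htdC
  have e0 : Kl (pr pp g) TA = Kl (pr pp g) SC := by congr 1
  rw [e0] at f0
  have c1 : Nat.card (Kl (pr pp g) TC) ≤ 7 := card_Kl_one (x0 := 0) (by decide) (by norm_num) (by
    apply Prod.ext
    · exact pord 0
    · exact hord 0)
  rw [card_M22]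
  change Nat.card (Kl (pr pp g) SA) ≤ _
  omega
theorem perf : commutator Cfsg.Spor.M22 = ⊤ := by
  refine perfect_of (n := nn) gen hord [(1, [(2, true), (1, true), (0, true), (1, false), (2, true), (1, false), (2, false), (1, true), (0, false), (1, false), (2, false), (0, true), (1, true), (0, false), (1, true)]), (0, [(2, true), (0, false), (1, true), (0, true), (0, true), (2, false), (1, true), (0, true), (0, true), (0, true)]), (2, [(1, true), (0, false), (1, true), (2, true), (1, true), (1, true), (0, true), (1, false), (2, false), (1, false), (0, true), (1, false), (2, true)])] (by decide +kernel) ?_ ?_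
  · intro a ha
    fin_cases ha <;> exact tr1 (by decide +kernel)
  · intro x _
    fin_cases x <;> decide
theorem ex4 : ∃ (Γ : Type) (_ : Group Γ) (_ : Finite Γ) (σ : Γ →* Cfsg.Spor.M22), Cfsg.IsStemExtension σ ∧
      Nonempty (σ.ker ≃* Multiplicative (ZMod 4)) :=
  exists_cover (p := pp) (g := g) (S := SA) (n := nn) (by norm_num) gen perf card_E zw (by decide)
    (tr1 (by decide +kernel)) zw_order (fun x _ => zw_comm x) (fun x _ => pord x) (fun x _ => hord x) (fun x _ => by fin_cases x <;> decide)
end H35.MulM22A
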