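import Mathlib
import Cfsg.Agent.Lib.H35.StemFour
import Cfsg.Agent.Lib.H35.MulM22A

set_option autoImplicit false
set_option maxRecDepth 100000
set_option linter.all false
set_option Elab.async false
namespace H35.MulM22B
open Subgroup H35.Stem H35.TC H35.Net H40.PermCode H40.MathieuBase H40.OutM22
open H35.MulM22A (X nn g ck tr tr1 hord card_top card_low lvC SC TC)
/-- letters of level B -/
def SB : X → Bool := ![true, true, true]

/-- lower letters of level B -/
def TB : X → Bool := ![true, true, false]

def wdB : TCM22B.Lt → W X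
  | .a => [(0, true)]
  | .ai => [(0, false)]
  | .b => [(1, true)]
  | .bi => [(1, false)]
  | .d => [(2, true)]
  | .di => [(2, false)]
  | .z => [(1, false), (0, true), (1, true), (2, true), (1, true), (2, false), (1, true), (0, false), (2, false), (0, false), (0, false)]

def rulesB_0 : List (Rule X) := [
  .ord 2,
  .conj [(2, true), (0, true), (2, true), (1, false), (0, false)] [(2, true)] [(1, false), (0, false)] 3,
  .conj [(2, true), (1, true), (0, true), (1, false), (2, true)] [(1, false)] [(1, false), (0, true), (1, false), (0, false)] 3,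
  .ord 1,
  .low [(0, true), (1, true), (0, true), (1, true), (0, true), (1, true)],
  .low [(0, true), (0, true), (1, true), (0, false), (1, true), (0, false), (1, false), (0, true), (1, false)]]

def rulesB_1 : List (Rule X) := [
  .conj [(0, true), (0, true), (0, true), (1, true), (2, true)] [(0, true), (0, true), (0, true), (1, true)] [(2, true)] 3]

def rulesB : List (Rule X) := rulesB_0 ++ rulesB_1

def cenB : TCM22B.Lt → Bool
  | .z => true
  | _ => false

def CB : CP X TCM22B.Lt where
  iv := fun _ => false
  wd := wdB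
  cen := cenB
  q := 2
  exact := rulesB.map fun r => nrm (fun _ => false) (red (fun _ => false) (r.word nn))

theorem tkB_0 : (rulesB_0.all (Rule.chk nn ck)) = true := by decide +kernel

theorem tkB_1 : (rulesB_1.all (Rule.chk nn ck)) = true := by decide +kernel

theorem htB : ∀ r ∈ rulesB, ∀ w ∈ r.needs nn, ev g w = 1 := by
  intro r hr
  refine Rule.needs_of_chk tr ?_
  simp only [rulesB, List.mem_append] at hr
  rcases hr with hr | hr
  · exact List.all_eq_true.1 tkB_0 r hr
  · exact List.all_eq_true.1 tkB_1 r hr

theorem hcB : ∀ z, CB.cen z = true → ev g (CB.wd z) = 1 := by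
  intro z hz
  refine tr1 ?_
  cases z <;> first | (exact absurd hz (by decide)) | decide +kernel

theorem lvB {Γ : Type} [Group Γ] [Finite Γ] {σ : Γ →* Cfsg.Spor.M22} {f : X → Γ} (h : Lifts σ 2 nn g f) (hi : Inj g f TB) :
    Nat.card (Kl f SB) ≤ 5280 * Nat.card (Kl f TB) := by
  have hh : CB.Holds f := holdsF (Ss := [TB]) h (by intro S hS; simp only [List.mem_singleton] at hS; subst hS; exact hi) rfl (fun _ h => absurd (show false = true from h) (by decide)) rfl (by decide +kernel) htB hcB
  obtain ⟨hinv, hrel⟩ := CP.relOK hh (inv := TCM22B.inv) (mm := TCM22B.mm) (ex := TCM22B.extra) (by intro x; cases x <;> decide +kernel)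
    (by intro x y; cases x <;> cases y <;> decide +kernel) (by decide +kernel)
  exact level (subs := TCM22B.subs) (fun H hH => TCM22B.main hinv hrel.1 hrel.2 hH) (by decide +kernel) (by
    intro x hx
    fin_cases x
    · exact ⟨.a, rfl⟩
    · exact ⟨.b, rfl⟩
    · exact ⟨.d, rfl⟩)
theorem bound (Γ : Type) [Group Γ] [Finite Γ] (σ : Γ →* Cfsg.Spor.M22) (f : X → Γ) (h : Lifts σ 2 nn g f) :
    Nat.card (Kl f SB) ≤ 887040 := by
  have h8 : Lifts σ 8 nn g f := h.mono (by norm_num)
  have g1 := lvC (Lifts.self hord) (Inj.self TC)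
  have e0 : Kl f TB = Kl f SC := by congr 1
  have e0' : Kl g TB = Kl g SC := by congr 1
  have c1 : Nat.card (Kl f TC) ≤ 7 := card_Kl_one (x0 := 0) (by decide) (by norm_num) (h.ord 0)
  have f1 := lvC h8 (h8.inj_one' (x0 := 0) (by decide) (by decide))
  have k168 := card_low
  have i0 : Inj g f TB := h.inj (by rw [e0, e0']; omega)
  have f0 := lvB h i0
  rw [e0] at f0
  omega
theorem noElem : NoElem Cfsg.Spor.M22 2 :=
  noElem_of_bound (X := X) (n := nn) (g := g) (S := SB) (by norm_num) (fun x => Or.inl ⟨hord x, by fin_cases x <;> decide⟩)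
    MulM22A.gen bound (by rw [card_M22]; norm_num)
end H35.MulM22B
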