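import Mathlib
import Cfsg.Agent.Lib.H35.StemFS
import Cfsg.Agent.Lib.H35.StemPerm
import Cfsg.Agent.Lib.H35.StemPerf
import Cfsg.Agent.Lib.H35.NXM22C
import Cfsg.Agent.Lib.H40.OutM22
import Cfsg.Agent.Lib.H35.TCM22D
import Cfsg.Agent.Lib.H35.TCM22E

set_option autoImplicit false
set_option maxRecDepth 100000
set_option linter.all false
set_option Elab.async false
namespace H35.MulM22C
open Subgroup H35.Stem H35.TC H35.Net H40.PermCode H40.MathieuBase H40.OutM22
abbrev X := Fin 3
/-- exponents of the letters -/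
def nn : X → ℕ := ![7, 4, 5]
/-- codes -/
def code : X → ℕ := ![0xbacd68a241531229b9f43c075234a0, 0xbc6d0204a37b8e2925ab552b333100, 0xbcce62b5c37d5500a2244b172a0ac0]
def codei : X → ℕ := ![0xbd0885c6664a84eb3db23d4232b200, 0xbd4a622ed47b92241d4168e3383240, 0xb85c3b112c7c6462b4eaad26880960]
theorem okk : ∀ x, okc 5 24 (code x) (codei x) = true := by intro x; fin_cases x <;> decide +kernel
noncomputable def perm (x : X) : Equiv.Perm Cfsg.GolayPt := ofCode E24 5 (code x) (codei x) (okk x)
theorem rep_x (x : X) : Rep E24 5 (perm x) (code x) := rep_ofCode _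
theorem rep_xi (x : X) : Rep E24 5 (perm x)⁻¹ (codei x) := rep_ofCode_inv _
theorem mem (x : X) : perm x ∈ Cfsg.Spor.M22 := by
  refine mem22_of_rep (rep_x x) ?_ ?_ ?_ <;> fin_cases x <;> decide +kernel
noncomputable def g (x : X) : Cfsg.Spor.M22 := ⟨perm x, mem x⟩
noncomputable def ck (w : W X) (m : ℕ) : Bool := isOne 5 24 (evc 5 24 code codei (rep w m))
theorem tr (w : W X) (m : ℕ) (h : ck w m = true) : (ev g w) ^ m = 1 := by
  rw [← ev_rep]
  exact ev_one_of_code hn24 (g := g) rep_x rep_xi h
theorem tr1 {w : W X} (h : ck w 1 = true) : ev g w = 1 := by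
  have := tr w 1 h
  rwa [pow_one] at this
theorem hord (x : X) : g x ^ nn x = 1 := by
  have h : ∀ x, ck [(x, true)] (nn x) = true := by intro x; fin_cases x <;> decide +kernel
  have h1 := tr _ _ (h x)
  change (g x * 1) ^ nn x = 1 at h1
  rwa [mul_one] at h1
theorem hn : ∀ x, Nat.Coprime (nn x) 9 := by decide
/-- letters of level A -/
def SA : X → Bool := ![true, true, true]

/-- lower letters of level A -/
def TA : X → Bool := ![true, true, false]

def wdA : TCM22D.Lt → W X
  | .a => [(0, true)]
  | .ai => [(0, false)]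
  | .b => [(1, true)]
  | .bi => [(1, false)]
  | .d => [(2, true)]
  | .di => [(2, false)]

def rulesA_0 : List (Rule X) := [
  .ord 2,
  .conj [(1, true), (1, true)] [(2, true)] [(2, false)] 5,
  .conj [(2, true)] [(1, true), (1, true), (0, true), (1, true), (0, true), (1, false)] [(1, false), (0, false), (1, false), (0, false)] 2,
  .conj [(2, false)] [(0, false), (1, false), (0, false), (1, false)] [(1, false), (1, false), (0, false), (1, false), (0, false), (1, true)] 2,
  .conj [(2, true), (0, true), (0, true), (2, true)] [(1, true), (1, true)] [(1, true), (0, false), (0, false), (0, false)] 4,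
  .conj [(2, true)] [(0, false), (1, false), (1, false), (0, true)] [(0, false), (0, false), (0, false), (0, false), (0, false), (1, true), (0, true), (0, true)] 2]

def rulesA_1 : List (Rule X) := [
  .conj [(2, false)] [(1, false), (0, false), (1, false), (0, false)] [(0, true), (1, true), (0, true), (1, false), (1, false), (0, false), (1, false), (0, false)] 2,
  .conj [(2, false), (2, false), (0, false), (2, false)] [(1, true), (1, true)] [(1, false), (0, false), (0, false), (0, false), (1, true), (1, true)] 4,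
  .ord 1,
  .ord 0,
  .low [(0, true), (1, true), (0, true), (1, true), (0, true), (1, true), (0, true), (1, true)],
  .low [(0, true), (0, true), (0, true), (1, false), (0, true), (0, true), (0, true), (1, false)]]

def rulesA_2 : List (Rule X) := [
  .low [(0, true), (1, true), (1, true), (0, true), (1, true), (1, true), (0, true), (1, false), (1, false), (0, true), (1, false), (1, false)],
  .low [(0, true), (0, true), (1, true), (0, false), (1, true), (1, true), (0, true), (1, false), (0, false), (1, true), (0, true), (1, true)]]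

def rulesA : List (Rule X) := rulesA_0 ++ rulesA_1 ++ rulesA_2

def cenA : TCM22D.Lt → Bool
  | _ => false

def CA : CP X TCM22D.Lt where
  iv := fun _ => false
  wd := wdA
  cen := cenA
  q := 9
  exact := rulesA.map fun r => nrm (fun _ => false) (red (fun _ => false) (r.word nn))

theorem tkA_0 : (rulesA_0.all (Rule.chk nn ck)) = true := by decide +kernel

theorem tkA_1 : (rulesA_1.all (Rule.chk nn ck)) = true := by decide +kernel

theorem tkA_2 : (rulesA_2.all (Rule.chk nn ck)) = true := by decide +kernel

theorem htA : ∀ r ∈ rulesA, ∀ w ∈ r.needs nn, ev g w = 1 := by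
  intro r hr
  refine Rule.needs_of_chk tr ?_
  simp only [rulesA, List.mem_append] at hr
  rcases hr with (hr | hr) | hr
  · exact List.all_eq_true.1 tkA_0 r hr
  · exact List.all_eq_true.1 tkA_1 r hr
  · exact List.all_eq_true.1 tkA_2 r hr

theorem hcA : ∀ z, CA.cen z = true → ev g (CA.wd z) = 1 := by
  intro z hz
  refine tr1 ?_
  cases z <;> first | (exact absurd hz (by decide)) | decide +kernel

theorem lvA {Γ : Type} [Group Γ] [Finite Γ] {σ : Γ →* Cfsg.Spor.M22} {f : X → Γ} (h : Lifts σ 9 nn g f) (hi : Inj g f TA) :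
    Nat.card (Kl f SA) ≤ 990 * Nat.card (Kl f TA) := by
  have hh : CA.Holds f := holdsF (Ss := [TA]) h (by intro S hS; simp only [List.mem_singleton] at hS; subst hS; exact hi) rfl (fun _ h => absurd (show false = true from h) (by decide)) rfl (by decide +kernel) htA hcA
  obtain ⟨hinv, hrel⟩ := CP.relOK hh (inv := TCM22D.inv) (mm := TCM22D.mm) (ex := TCM22D.extra) (by intro x; cases x <;> decide +kernel)
    (by intro x y; cases x <;> cases y <;> decide +kernel) (by decide +kernel)
  exact level (subs := TCM22D.subs) (fun H hH => TCM22D.main hinv hrel.1 hrel.2 hH) (by decide +kernel) (by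
    intro x hx
    fin_cases x
    · exact ⟨.a, rfl⟩
    · exact ⟨.b, rfl⟩
    · exact ⟨.d, rfl⟩)

theorem lvdA {P' : Type} [Group P'] [Finite P'] {f : X → P'} (hiv : ∀ x, CA.iv x = true → f x * f x = 1)
    (ht : ∀ r ∈ rulesA, ev f (r.word nn) = 1) :
    Nat.card (Kl f SA) ≤ 990 * Nat.card (Kl f TA) := by
  have hh : CA.Holds f := holdsDF (rules := rulesA) (n := nn) hiv rfl ht (fun z hz => absurd hz (by cases z <;> decide)) (fun z hz => absurd hz (by cases z <;> decide))
  obtain ⟨hinv, hrel⟩ := CP.relOK hh (inv := TCM22D.inv) (mm := TCM22D.mm) (ex := TCM22D.extra) (by intro x; cases x <;> decide +kernel)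
    (by intro x y; cases x <;> cases y <;> decide +kernel) (by decide +kernel)
  exact level (subs := TCM22D.subs) (fun H hH => TCM22D.main hinv hrel.1 hrel.2 hH) (by decide +kernel) (by
    intro x hx
    fin_cases x
    · exact ⟨.a, rfl⟩
    · exact ⟨.b, rfl⟩
    · exact ⟨.d, rfl⟩)
/-- letters of level C -/
def SC : X → Bool := ![true, true, false]

/-- lower letters of level C -/
def TC : X → Bool := ![true, false, false]

def wdC : TCM22E.Lt → W X
  | .a => [(0, true)]
  | .ai => [(0, false)]
  | .b => [(1, true)]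
  | .bi => [(1, false)]
  | .z => [(0, true), (0, true), (1, true), (1, true), (0, false), (1, true), (1, true), (0, true), (1, true), (0, false), (1, false), (0, true), (1, true)]
  | .zi => [(1, false), (0, false), (1, true), (0, true), (1, false), (0, false), (1, false), (1, false), (0, true), (1, false), (1, false), (0, false), (0, false)]

def rulesC_0 : List (Rule X) := [
  .ord 1,
  .ord 0,
  .conj [(0, false), (0, false), (1, true), (0, false)] [(1, true), (1, true)] [(1, false), (1, false)] 4,
  .conj [(1, false), (1, false), (0, false), (1, true), (0, false), (1, true)] [(0, false)] [(0, false), (0, false)] 7]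

def rulesC : List (Rule X) := rulesC_0

def cenC : TCM22E.Lt → Bool
  | .z => true
  | .zi => true
  | _ => false

def CC : CP X TCM22E.Lt where
  iv := fun _ => false
  wd := wdC
  cen := cenC
  q := 9
  exact := rulesC.map fun r => nrm (fun _ => false) (red (fun _ => false) (r.word nn))

theorem tkC_0 : (rulesC_0.all (Rule.chk nn ck)) = true := by decide +kernel

theorem htC : ∀ r ∈ rulesC, ∀ w ∈ r.needs nn, ev g w = 1 := by
  intro r hr
  exact Rule.needs_of_chk tr (List.all_eq_true.1 tkC_0 r hr)

theorem hcC : ∀ z, CC.cen z = true → ev g (CC.wd z) = 1 := by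
  intro z hz
  refine tr1 ?_
  cases z <;> first | (exact absurd hz (by decide)) | decide +kernel

theorem lvC {Γ : Type} [Group Γ] [Finite Γ] {σ : Γ →* Cfsg.Spor.M22} {f : X → Γ} (h : Lifts σ 9 nn g f) (hi : Inj g f TC) :
    Nat.card (Kl f SC) ≤ 192 * Nat.card (Kl f TC) := by
  have hh : CC.Holds f := holdsF (Ss := [TC]) h (by intro S hS; simp only [List.mem_singleton] at hS; subst hS; exact hi) rfl (fun _ h => absurd (show false = true from h) (by decide)) rfl (by decide +kernel) htC hcC
  obtain ⟨hinv, hrel⟩ := CP.relOK hh (inv := TCM22E.inv) (mm := TCM22E.mm) (ex := TCM22E.extra) (by intro x; cases x <;> decide +kernel)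
    (by intro x y; cases x <;> cases y <;> decide +kernel) (by decide +kernel)
  exact level (subs := TCM22E.subs) (fun H hH => TCM22E.main hinv hrel.1 hrel.2 hH) (by decide +kernel) (by
    intro x hx
    fin_cases x
    · exact ⟨.a, rfl⟩
    · exact ⟨.b, rfl⟩
    · exact absurd hx (by decide))

theorem lvdC {P' : Type} [Group P'] [Finite P'] {f : X → P'} (hiv : ∀ x, CC.iv x = true → f x * f x = 1)
    (ht : ∀ r ∈ rulesC, ev f (r.word nn) = 1)
    (hcen : ∀ z, CC.cen z = true → ∀ y : P', ev f (CC.wd z) * y = y * ev f (CC.wd z))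
    (hpow : ∀ z, CC.cen z = true → ev f (CC.wd z) ^ CC.q = 1) :
    Nat.card (Kl f SC) ≤ 192 * Nat.card (Kl f TC) := by
  have hh : CC.Holds f := holdsDF (rules := rulesC) (n := nn) hiv rfl ht hcen hpow
  obtain ⟨hinv, hrel⟩ := CP.relOK hh (inv := TCM22E.inv) (mm := TCM22E.mm) (ex := TCM22E.extra) (by intro x; cases x <;> decide +kernel)
    (by intro x y; cases x <;> cases y <;> decide +kernel) (by decide +kernel)
  exact level (subs := TCM22E.subs) (fun H hH => TCM22E.main hinv hrel.1 hrel.2 hH) (by decide +kernel) (by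
    intro x hx
    fin_cases x
    · exact ⟨.a, rfl⟩
    · exact ⟨.b, rfl⟩
    · exact absurd hx (by decide))
theorem w_uG : H40.OutM22.uG = ev g [(0, true), (0, true), (2, false), (1, false), (2, false), (0, true), (1, true), (1, true)] :=
  eq_ev_of_code hn24 (g := g) rep_x rep_xi (p := H40.OutM22.uG) H40.MathieuElts.rep_u (by decide +kernel)
theorem w_vG : H40.OutM22.vG = ev g [(1, false), (0, false), (1, false), (0, true), (2, false), (1, false), (0, true), (2, false), (0, false)] :=
  eq_ev_of_code hn24 (g := g) rep_x rep_xi (p := H40.OutM22.vG) H40.MathieuElts.rep_v (by decide +kernel)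
theorem w_cG : H40.OutM22.cG = ev g [(0, false), (0, false), (2, false), (0, false), (2, true), (0, false), (2, true), (0, false), (1, false)] :=
  eq_ev_of_code hn24 (g := g) rep_x rep_xi (p := H40.OutM22.cG) H40.OutM22.rep_c (by decide +kernel)
theorem gen : Kl g SA = ⊤ := by
  rw [eq_top_iff, ← H40.OutM22.gen, closure_le]
  intro x hx
  rcases hx with rfl | rfl | rfl
  · rw [w_uG]; exact ev_mem_Kl (by decide)
  · rw [w_vG]; exact ev_mem_Kl (by decide)
  · rw [w_cG]; exact ev_mem_Kl (by decide)
theorem card_top : Nat.card (Kl g SA) = 443520 := by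
  rw [gen, Nat.card_congr (Subgroup.topEquiv (G := Cfsg.Spor.M22)).toEquiv, H40.OutM22.card_M22]
theorem hcertK : cert 5 24 [(0xbc961a9464530ed43d33758d180a80, 0, 1), (0xba2d21ccb47b522ab1417120b89cc0, 0, 1), (0xbd48828666609471b5f2752365a600, 0, 2), (0xbcea6b422b609c90bd436a085a1e40, 0, 4), (0xbc66b2c894609a7829c179ab642460, 0, 5), (0xb9234b0ea8609e9939b052e6531c20, 0, 6), (0xbca912ac28489ac239f050cd699ea0, 7, 6), (0xb8648b54d3489475bda4746851b200, 0, 8), (0xb98332c283489ccab54b7a25689c80, 0, 9), (0xbd0c3b1251489e7829d56cc2543160, 0, 10), (0xbc2749548b51dccb09236c5062bc20, 0, 10), (0xb8e448d0d0531c22a4e878575b3660, 10, 12), (0xb9870acd76531eda1dc54925108900, 0, 13), (0xbd086596683b5c2ab1504d8238be40, 0, 13), (0xbd6d49c0b26094f5b4e64a2241b820, 0, 14), (0xbce0b95105709ed8b15638486aa460, 15, 15), (0xba26530c95708e9a29f162e120b6c0, 0, 17), (0xb911595a017098d1bcf4516665a620, 0, 18), (0xb8ca4852d17b4e9909d55056833260, 0, 18), (0xbd87144d667b54ca38f2110b00a6a0, 0, 20), (0xbd0965ca75730e9435f111823828a0, 0, 20), (0xba0d49c6456a5ea5b1d61560419c20,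 0, 21), (0xbd506a2e046b1472893378e21b3a40, 13, 22), (0xb947584d7211d2ea31a6792c80aa20, 0, 23), (0xbd08559a71639aa81c557c823426c0, 0, 24), (0xbc2549d4d63a8495b9857c5041b420, 0, 25)] [code 0, code 1] [(1, [26, 27], [(1, 0), (1, 1), (5, 0), (5, 1), (8, 0), (8, 1), (3, 0), (3, 1), (21, 1), (20, 1), (11, 0), (11, 1), (22, 1)]), (3, [20, 15], [(3, 0), (3, 1), (6, 0), (6, 1), (5, 0), (5, 1), (11, 0), (11, 1), (17, 0), (17, 1), (8, 0)]), (2, [11, 4, 0], [(2, 0), (2, 1), (2, 2), (14, 1), (14, 2), (7, 2), (9, 2)])] 1344 = true := by decide +kernel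
theorem card_low : 1344 ≤ Nat.card (Kl g SC) := by
  have h1 : 1344 ≤ Nat.card ((Kl g SC).map (Cfsg.Spor.M22).subtype) := by
    refine cert_spec (E := E24) hcertK ?_
    intro x hx
    simp only [List.mem_cons, List.not_mem_nil, or_false] at hx
    rcases hx with rfl | rfl
    · exact ⟨perm 0, ⟨g 0, mem_Kl (by decide), rfl⟩, rep_x 0⟩
    · exact ⟨perm 1, ⟨g 1, mem_Kl (by decide), rfl⟩, rep_x 1⟩
  rwa [Nat.card_congr ((Kl g SC).equivMapOfInjective _ (Cfsg.Spor.M22).subtype_injective).toEquiv]
theorem bound (Γ : Type) [Group Γ] [Finite Γ] (σ : Γ →* Cfsg.Spor.M22) (f : X → Γ) (h : Lifts σ 9 nn g f) :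
    Nat.card (Kl f SA) ≤ 1330560 := by
  have e0 : Kl f TA = Kl f SC := by congr 1
  have e0' : Kl g TA = Kl g SC := by congr 1
  have c1 : Nat.card (Kl f TC) ≤ 7 := card_Kl_one (x0 := 0) (by decide) (by norm_num) (h.ord 0)
  have f1 := lvC h (h.inj_one' (x0 := 0) (by decide) (by decide))
  have k168 := card_low
  have i0 : Inj g f TA := h.inj (by rw [e0, e0']; omega)
  have f0 := lvA h i0
  rw [e0] at f0
  omega
theorem noExt9 : NoExt Cfsg.Spor.M22 9 := noExt_of_bound (q := 9) (by norm_num) hord hn gen bound (by rw [card_M22]; norm_num)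
theorem exp : ∃ p : X → FS 10, LetNet 10 (FS 10).subtype p NXM22C.netX := exists_letNet NXM22C.bpx NXM22C.invx
noncomputable def pp : X → FS 10 := exp.choose
theorem lnp : LetNet 10 (FS 10).subtype pp NXM22C.netX := exp.choose_spec
noncomputable def ckp (w : W X) (m : ℕ) : Bool := chkW NXM22C.netX 10 w m 0 10
theorem trp (w : W X) (m : ℕ) (h : ckp w m = true) : (ev pp w) ^ m = 1 := lnp.pow_one (FS 10).subtype_injective h
theorem pord (x : X) : pp x ^ nn x = 1 := by
  have h : ∀ x, ckp [(x, true)] (nn x) = true := by intro x; fin_cases x <;> decide +kernel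
  have h1 := trp _ _ (h x)
  change (pp x * 1) ^ nn x = 1 at h1
  rwa [mul_one] at h1
theorem pt2 {w : W X} (h : (ck w 1 && ckp w 1) = true) : ev (pr pp g) w = 1 := by
  rw [Bool.and_eq_true] at h
  rw [ev_pr, tr1 h.1, show ev pp w = 1 by simpa using trp w 1 h.2]
  rfl
def zw : W X := [(1, true), (2, true), (1, true), (2, true), (1, true), (2, true), (1, true), (2, true), (1, true), (2, true)]
theorem zw_order : orderOf (ev pp zw) = 3 := by
  have h := orderOf_eq_prime_pow (x := ev pp zw) (p := 3) (n := 0) ?_ ?_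
  · simpa using h
  · rw [pow_zero, pow_one]
    exact lnp.ne_one (V := 1) (by decide +kernel)
  · rw [show (3 : ℕ) ^ (0 + 1) = 3 by norm_num]
    exact trp zw 3 (by decide +kernel)
theorem zw_comm (x : X) : pp x * ev pp zw = ev pp zw * pp x :=
  lnp.comm (FS 10).subtype_injective (by fin_cases x <;> decide +kernel)
theorem htdA : ∀ r ∈ rulesA, ev (pr pp g) (r.word nn) = 1 := by
  intro r hr
  have h : ∀ r ∈ rulesA, (ck (r.word nn) 1 && ckp (r.word nn) 1) = true := by
    rw [← List.all_eq_true]
    decide +kernel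
  exact pt2 (h r hr)
theorem htdC : ∀ r ∈ rulesC, ev (pr pp g) (r.word nn) = 1 := by
  intro r hr
  have h : ∀ r ∈ rulesC, (ck (r.word nn) 1 && ckp (r.word nn) 1) = true := by
    rw [← List.all_eq_true]
    decide +kernel
  exact pt2 (h r hr)
theorem hcC1 : ∀ z, CC.cen z = true → ev (pr pp g) (CC.wd z) = 1 := by
  intro z hz
  refine pt2 ?_
  cases z <;> first | (exact absurd hz (by decide)) | decide +kernel
theorem card_E : Nat.card (EE pp g SA) ≤ 3 * Nat.card Cfsg.Spor.M22 := by
  have f0 := lvdA (f := pr pp g) (fun _ h => absurd (show false = true from h) (by decide)) htdA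
  have f1 := lvdC (f := pr pp g) (fun _ h => absurd (show false = true from h) (by decide)) htdC
    (fun z hz y => by rw [hcC1 z hz, one_mul, mul_one]) (fun z hz => by rw [hcC1 z hz, one_pow])
  have e0 : Kl (pr pp g) TA = Kl (pr pp g) SC := by congr 1
  rw [e0] at f0
  have c1 : Nat.card (Kl (pr pp g) TC) ≤ 7 := card_Kl_one (x0 := 0) (by decide) (by norm_num) (by
    apply Prod.ext
    · exact pord 0
    · exact hord 0)
  rw [card_M22]
  change Nat.card (Kl (pr pp g) SA) ≤ _
  omega
theorem perf : commutator Cfsg.Spor.M22 = ⊤ := by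
  refine perfect_of (n := nn) gen hord [(2, [(1, true), (1, true), (2, true), (1, false), (1, false), (2, true)]), (0, [(2, true), (1, true), (1, true), (0, true), (1, true), (0, true), (1, false), (2, false), (0, true), (1, true), (0, true), (1, true), (1, false), (1, false), (1, false), (1, false)]), (1, [(2, true), (0, true), (0, true), (2, true), (1, true), (1, true), (2, false), (0, false), (0, false), (2, false), (0, true), (0, true), (0, true), (1, false)])] (by decide +kernel) ?_ ?_
  · intro a ha
    fin_cases ha <;> exact tr1 (by decide +kernel)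
  · intro x _
    fin_cases x <;> decide
theorem ex3 : ∃ (Γ : Type) (_ : Group Γ) (_ : Finite Γ) (σ : Γ →* Cfsg.Spor.M22), Cfsg.IsStemExtension σ ∧
      Nonempty (σ.ker ≃* Multiplicative (ZMod 3)) :=
  exists_cover (p := pp) (g := g) (S := SA) (n := nn) (by norm_num) gen perf card_E zw (by decide)
    (tr1 (by decide +kernel)) zw_order (fun x _ => zw_comm x) (fun x _ => pord x) (fun x _ => hord x) (fun x _ => by fin_cases x <;> decide)
end H35.MulM22C
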