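import Cfsg.Prelude.Def_KGroupFacts
import Cfsg.Agent.Lib.H35.MulM22A
import Cfsg.Agent.Lib.H35.MulM22B
import Cfsg.Agent.Lib.H35.MulM22C
/-!
# The Schur multiplier of M22
-/
set_option autoImplicit false
namespace H35.MulM22
open H35.Stem H40.OutM22
theorem mult : Cfsg.HasCyclicSchurMultiplier Cfsg.Spor.M22 12 := by
  have hex := prod_cover (m := 4) (k := 3) (by norm_num) (by norm_num) (by norm_num) MulM22A.ex4 MulM22C.ex3
  have f2 : (12 : ℕ).factorization 2 = 2 := by
    rw [show (12 : ℕ) = 2 ^ 2 * 3 by norm_num, Nat.factorization_mul (by norm_num) (by norm_num),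
      Nat.Prime.factorization_pow Nat.prime_two, Nat.Prime.factorization Nat.prime_three]
    simp
  have f3 : (12 : ℕ).factorization 3 = 1 := by
    rw [show (12 : ℕ) = 2 ^ 2 * 3 by norm_num, Nat.factorization_mul (by norm_num) (by norm_num),
      Nat.Prime.factorization_pow Nat.prime_two, Nat.Prime.factorization Nat.prime_three]
    simp
  refine ⟨by simpa using hex, fun Γ _ _ σ hσ => H40.StemFinish.exists_surj_ker' hσ (m := 12) (by norm_num) ?_⟩
  intro p hp hpG
  rw [card_M22] at hpG
  obtain ⟨a, ha, rfl⟩ := prime_dvd_list hp [(2, 7), (3, 2), (5, 1), (7, 1), (11, 1)] (by decide +kernel)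
    (by simpa using hpG)
  fin_cases ha
  · exact cond_psq Nat.prime_two (by simpa using MulM22A.noExt8) MulM22B.noElem hσ (by rw [f2])
  · exact cond_two Nat.prime_three (by simpa using MulM22C.noExt9) hσ (by rw [f3])
  all_goals exact cond_prime hp (by rw [card_M22]; norm_num) (by rw [card_M22]; norm_num) hσ 12
end H35.MulM22
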