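import Mathlib
import Cfsg.Agent.Lib.H35.StemFS
import Cfsg.Agent.Lib.H35.StemStep
import Cfsg.Agent.Lib.H35.StemPerf
import Cfsg.Agent.Lib.H35.NXSzA
import Cfsg.Agent.Lib.H35.NXSzP
import Cfsg.Agent.Lib.H35.SuzMain
import Cfsg.Agent.Lib.H35.TCMSzA
import Cfsg.Agent.Lib.H35.TCMSzB
import Cfsg.Agent.Lib.H35.TCMSzC
import Cfsg.Agent.Lib.H35.TCMSzD
import Cfsg.Agent.Lib.H35.TCMSzE

/-!
# The Schur multiplier of Suz: the prime 2
-/
set_option autoImplicit false
set_option maxRecDepth 100000
set_option linter.all false
set_option Elab.async false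
namespace H35.MulSuzA
open Subgroup H35.Stem H35.TC H35.Net H35.SuzMain H35.NXSzA
abbrev X := Fin 6
/-- exponents of the letters -/
def nn : X → ℕ := ![3, 3, 3, 3, 3, 3]
/-- words of the letters -/
def d : X → List LA
  | 0 => [.b, .c, .b, .a, .d, .c, .b, .a, .f, .b, .c, .d, .c, .e, .d, .c, .d, .b, .a, .b, .c, .d, .c, .b, .f, .a]
  | 1 => [.a, .b, .e, .d, .c, .b, .a, .d, .c, .b, .a, .b, .e, .d, .c, .d, .b, .c, .a, .b]
  | 2 => [.b, .a, .b, .a, .c, .b, .d, .c, .d, .c, .b, .a, .e, .f, .b, .c, .d, .c, .b, .f, .e, .b, .c, .d, .a, .b, .c, .d]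
  | 3 => [.b, .a, .c, .b, .a, .d, .e, .f, .b, .a, .c, .d, .c, .b, .e, .f, .a, .b, .c, .a, .b]
  | 4 => [.b, .a, .f, .b, .a, .b, .c, .b, .d, .c, .b, .a, .b, .e, .d, .c, .a, .b, .f, .c, .d, .e, .c, .d, .b, .c, .d, .e, .d, .c]
  | 5 => [.c, .d, .c, .b, .a, .f, .b, .c, .d, .e, .g, .f, .b, .c, .d, .c, .b, .f, .g, .d, .c, .b, .f, .a, .b, .c, .d, .c]
/-- the letters -/
noncomputable def g (x : X) : Cfsg.Spor.Suz := ((d x).map gP).prod
theorem hbp' : ∀ x, BP (2 ^ 11) (NSuz.net x) (φ (gP x)) := by
  intro x
  rw [hφ]
  exact NSuz.hbp x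
theorem ln : LetNet 11 φ g netX := letNet_of hbp' bpx invx (by intro x; fin_cases x <;> decide +kernel)
theorem hinj : Function.Injective φ := card_inj.2
noncomputable def ck (w : W X) (m : ℕ) : Bool := chkW netX 11 w m 0 11
theorem tr (w : W X) (m : ℕ) (h : ck w m = true) : (ev g w) ^ m = 1 := ln.pow_one hinj h
theorem tr1 {w : W X} (h : ck w 1 = true) : ev g w = 1 := ln.ev_one hinj h
theorem hord (x : X) : g x ^ nn x = 1 := by
  have h : ∀ x, ck [(x, true)] (nn x) = true := by intro x; fin_cases x <;> decide +kernel
  have h1 := tr _ _ (h x)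
  change (g x * 1) ^ nn x = 1 at h1
  rwa [mul_one] at h1
theorem hn : ∀ x, Nat.Coprime (nn x) 4 := by decide
/-- letters of level D -/
def SD : X → Bool := ![true, true, true, false, false, false]

/-- lower letters of level D -/
def TD : X → Bool := ![true, false, false, false, false, false]

def wdD : TCMSzD.Lt → W X
  | .a => [(0, true)]
  | .ai => [(0, false)]
  | .b => [(1, true)]
  | .bi => [(1, false)]
  | .c => [(2, true)]
  | .ci => [(2, false)]

def rulesD_0 : List (Rule X) := [
  .ord 0,
  .ord 2,
  .conj [(1, true), (2, true)] [(1, true)] [(2, true)] 3,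
  .conj [(0, true), (1, false), (2, true), (0, true)] [(2, true)] [(1, false)] 3,
  .conj [(2, false), (0, false), (1, false), (2, true), (1, false)] [(2, false)] [(0, false)] 3,
  .conj [(2, false), (1, false), (0, false), (2, true), (1, true)] [(0, false)] [(0, false)] 3]

def rulesD : List (Rule X) := rulesD_0

def cenD : TCMSzD.Lt → Bool
  | _ => false

def CD : CP X TCMSzD.Lt where
  iv := fun _ => false
  wd := wdD
  cen := cenD
  q := 4
  exact := rulesD.map fun r => nrm (fun _ => false) (red (fun _ => false) (r.word nn))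

theorem tkD_0 : (rulesD_0.all (Rule.chk nn ck)) = true := by decide +kernel

theorem htD : ∀ r ∈ rulesD, ∀ w ∈ r.needs nn, ev g w = 1 := by
  intro r hr
  exact Rule.needs_of_chk tr (List.all_eq_true.1 tkD_0 r hr)

theorem hcD : ∀ z, CD.cen z = true → ev g (CD.wd z) = 1 := by
  intro z hz
  refine tr1 ?_
  cases z <;> first | (exact absurd hz (by decide)) | decide +kernel

theorem lvD {Γ : Type} [Group Γ] [Finite Γ] {σ : Γ →* Cfsg.Spor.Suz} {f : X → Γ} (h : Lifts σ 4 nn g f) (hi : Inj g f TD) :
    Nat.card (Kl f SD) ≤ 2016 * Nat.card (Kl f TD) := by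
  have hh : CD.Holds f := holdsF (Ss := [TD]) h (by intro S hS; simp only [List.mem_singleton] at hS; subst hS; exact hi) rfl (fun _ h => absurd (show false = true from h) (by decide)) rfl (by decide +kernel) htD hcD
  obtain ⟨hinv, hrel⟩ := CP.relOK hh (inv := TCMSzD.inv) (mm := TCMSzD.mm) (ex := TCMSzD.extra) (by intro x; cases x <;> decide +kernel)
    (by intro x y; cases x <;> cases y <;> decide +kernel) (by decide +kernel)
  exact level (subs := TCMSzD.subs) (fun H hH => TCMSzD.main hinv hrel.1 hrel.2 hH) (by decide +kernel) (by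
    intro x hx
    fin_cases x
    · exact ⟨.a, rfl⟩
    · exact ⟨.b, rfl⟩
    · exact ⟨.c, rfl⟩
    · exact absurd hx (by decide)
    · exact absurd hx (by decide)
    · exact absurd hx (by decide))

theorem lvdD {P' : Type} [Group P'] [Finite P'] {f : X → P'} (hiv : ∀ x, CD.iv x = true → f x * f x = 1)
    (ht : ∀ r ∈ rulesD, ev f (r.word nn) = 1) :
    Nat.card (Kl f SD) ≤ 2016 * Nat.card (Kl f TD) := by
  have hh : CD.Holds f := holdsDF (rules := rulesD) (n := nn) hiv rfl ht (fun z hz => absurd hz (by cases z <;> decide)) (fun z hz => absurd hz (by cases z <;> decide))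
  obtain ⟨hinv, hrel⟩ := CP.relOK hh (inv := TCMSzD.inv) (mm := TCMSzD.mm) (ex := TCMSzD.extra) (by intro x; cases x <;> decide +kernel)
    (by intro x y; cases x <;> cases y <;> decide +kernel) (by decide +kernel)
  exact level (subs := TCMSzD.subs) (fun H hH => TCMSzD.main hinv hrel.1 hrel.2 hH) (by decide +kernel) (by
    intro x hx
    fin_cases x
    · exact ⟨.a, rfl⟩
    · exact ⟨.b, rfl⟩
    · exact ⟨.c, rfl⟩
    · exact absurd hx (by decide)
    · exact absurd hx (by decide)
    · exact absurd hx (by decide))
/-- letters of level C -/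
def SC : X → Bool := ![true, true, true, true, false, false]

/-- lower letters of level C -/
def TC : X → Bool := ![true, true, true, false, false, false]

def wdC : TCMSzC.Lt → W X
  | .a => [(0, true)]
  | .ai => [(0, false)]
  | .b => [(1, true)]
  | .bi => [(1, false)]
  | .c => [(2, true)]
  | .ci => [(2, false)]
  | .d => [(3, true)]
  | .di => [(3, false)]

def rulesC_0 : List (Rule X) := [
  .conj [(3, false)] [(1, false), (2, true), (2, true), (0, true)] [(2, true), (1, true), (0, false)] 7,
  .conj [(3, false)] [(1, false), (2, false), (0, true)] [(2, true), (1, false), (1, false), (0, false)] 7,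
  .conj [(3, false)] [(1, false), (2, false), (0, true)] [(2, false), (2, false), (1, true), (0, false)] 7,
  .conj [(3, false)] [(2, true), (1, false), (2, true), (0, true)] [(2, false), (1, true), (2, false), (0, false)] 7,
  .conj [(3, false)] [(2, false), (1, false), (2, false), (1, true), (0, true)] [(2, true), (1, true), (0, false)] 7,
  .conj [(3, true), (0, true), (2, false)] [(3, false)] [(2, false), (0, true), (2, false), (0, false), (2, true)] 3]

def rulesC_1 : List (Rule X) := [
  .conj [(3, true), (0, false), (1, true), (0, true)] [(3, true)] [(0, false), (1, true), (0, true)] 3,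
  .conj [(3, true), (0, false), (1, true), (3, true)] [(0, true)] [(0, false), (1, false), (0, true)] 3,
  .conj [(3, true), (0, false)] [(3, true)] [(0, true), (2, true), (0, true), (2, false), (0, false), (2, false), (0, false)] 3,
  .conj [(3, true), (0, false)] [(3, true)] [(0, true), (2, false), (0, false), (2, false), (0, true), (2, true), (0, false)] 3,
  .conj [(3, true), (0, false)] [(3, true)] [(1, false), (0, false), (0, false), (1, true), (0, true), (0, true), (1, true)] 3,
  .conj [(3, true), (0, false)] [(3, true)] [(2, true), (0, false), (0, false), (2, false), (0, true), (0, true), (2, false)] 3]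

def rulesC_2 : List (Rule X) := [
  .conj [(3, true), (0, false)] [(3, false)] [(0, true), (1, true), (0, false), (1, false), (0, true), (1, false), (0, false)] 3]

def rulesC : List (Rule X) := rulesC_0 ++ rulesC_1 ++ rulesC_2

def cenC : TCMSzC.Lt → Bool
  | _ => false

def CC : CP X TCMSzC.Lt where
  iv := fun _ => false
  wd := wdC
  cen := cenC
  q := 4
  exact := rulesC.map fun r => nrm (fun _ => false) (red (fun _ => false) (r.word nn))

theorem tkC_0 : (rulesC_0.all (Rule.chk nn ck)) = true := by decide +kernel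

theorem tkC_1 : (rulesC_1.all (Rule.chk nn ck)) = true := by decide +kernel

theorem tkC_2 : (rulesC_2.all (Rule.chk nn ck)) = true := by decide +kernel

theorem htC : ∀ r ∈ rulesC, ∀ w ∈ r.needs nn, ev g w = 1 := by
  intro r hr
  refine Rule.needs_of_chk tr ?_
  simp only [rulesC, List.mem_append] at hr
  rcases hr with (hr | hr) | hr
  · exact List.all_eq_true.1 tkC_0 r hr
  · exact List.all_eq_true.1 tkC_1 r hr
  · exact List.all_eq_true.1 tkC_2 r hr

theorem hcC : ∀ z, CC.cen z = true → ev g (CC.wd z) = 1 := by
  intro z hz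
  refine tr1 ?_
  cases z <;> first | (exact absurd hz (by decide)) | decide +kernel

theorem lvC {Γ : Type} [Group Γ] [Finite Γ] {σ : Γ →* Cfsg.Spor.Suz} {f : X → Γ} (h : Lifts σ 4 nn g f) (hi0 : Inj g f SD) :
    Nat.card (Kl f SC) ≤ 200 * Nat.card (Kl f TC) := by
  have hh : CC.Holds f := holdsF (Ss := [SD]) h (by intro S hS; simp only [List.mem_cons, List.mem_nil_iff, or_false] at hS; rcases hS with rfl <;> assumption) rfl (fun _ h => absurd (show false = true from h) (by decide)) rfl (by decide +kernel) htC hcC
  obtain ⟨hinv, hrel⟩ := CP.relOK hh (inv := TCMSzC.inv) (mm := TCMSzC.mm) (ex := TCMSzC.extra) (by intro x; cases x <;> decide +kernel)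
    (by intro x y; cases x <;> cases y <;> decide +kernel) (by decide +kernel)
  exact level (subs := TCMSzC.subs) (fun H hH => TCMSzC.main hinv hrel.1 hrel.2 hH) (by decide +kernel) (by
    intro x hx
    fin_cases x
    · exact ⟨.a, rfl⟩
    · exact ⟨.b, rfl⟩
    · exact ⟨.c, rfl⟩
    · exact ⟨.d, rfl⟩
    · exact absurd hx (by decide)
    · exact absurd hx (by decide))

theorem lvdC {P' : Type} [Group P'] [Finite P'] {f : X → P'} (hiv : ∀ x, CC.iv x = true → f x * f x = 1)
    (ht : ∀ r ∈ rulesC, ev f (r.word nn) = 1) :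
    Nat.card (Kl f SC) ≤ 200 * Nat.card (Kl f TC) := by
  have hh : CC.Holds f := holdsDF (rules := rulesC) (n := nn) hiv rfl ht (fun z hz => absurd hz (by cases z <;> decide)) (fun z hz => absurd hz (by cases z <;> decide))
  obtain ⟨hinv, hrel⟩ := CP.relOK hh (inv := TCMSzC.inv) (mm := TCMSzC.mm) (ex := TCMSzC.extra) (by intro x; cases x <;> decide +kernel)
    (by intro x y; cases x <;> cases y <;> decide +kernel) (by decide +kernel)
  exact level (subs := TCMSzC.subs) (fun H hH => TCMSzC.main hinv hrel.1 hrel.2 hH) (by decide +kernel) (by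
    intro x hx
    fin_cases x
    · exact ⟨.a, rfl⟩
    · exact ⟨.b, rfl⟩
    · exact ⟨.c, rfl⟩
    · exact ⟨.d, rfl⟩
    · exact absurd hx (by decide)
    · exact absurd hx (by decide))
/-- letters of level B -/
def SB : X → Bool := ![true, true, true, true, true, false]

/-- lower letters of level B -/
def TB : X → Bool := ![true, true, true, true, false, false]

def wdB : TCMSzB.Lt → W X
  | .a => [(0, true)]
  | .ai => [(0, false)]
  | .b => [(1, true)]
  | .bi => [(1, false)]
  | .c => [(2, true)]
  | .ci => [(2, false)]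
  | .d => [(3, true)]
  | .di => [(3, false)]
  | .t => [(4, true)]
  | .ti => [(4, false)]

def rulesB_0 : List (Rule X) := [
  .conj [(1, true), (2, false)] [(4, true)] [(4, true)] 3,
  .conj [(1, false), (4, true)] [(3, false)] [(4, false)] 3,
  .conj [(3, true), (0, false)] [(3, true)] [(0, false)] 3,
  .conj [(3, true), (4, true)] [(0, true)] [(0, false)] 3,
  .conj [(3, true), (4, true)] [(1, true)] [(1, false)] 3,
  .conj [(4, true), (3, false)] [(4, true)] [(3, false)] 3]

def rulesB_1 : List (Rule X) := [
  .low [(0, true), (2, true), (0, true), (2, false), (0, false), (2, false)],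
  .low [(1, true), (2, true), (1, true), (2, false), (1, false), (2, false)],
  .low [(0, true), (1, true), (0, false), (1, true), (0, true), (1, false)]]

def rulesB : List (Rule X) := rulesB_0 ++ rulesB_1

def cenB : TCMSzB.Lt → Bool
  | _ => false

def CB : CP X TCMSzB.Lt where
  iv := fun _ => false
  wd := wdB
  cen := cenB
  q := 4
  exact := rulesB.map fun r => nrm (fun _ => false) (red (fun _ => false) (r.word nn))

theorem tkB_0 : (rulesB_0.all (Rule.chk nn ck)) = true := by decide +kernel

theorem tkB_1 : (rulesB_1.all (Rule.chk nn ck)) = true := by decide +kernel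

theorem htB : ∀ r ∈ rulesB, ∀ w ∈ r.needs nn, ev g w = 1 := by
  intro r hr
  refine Rule.needs_of_chk tr ?_
  simp only [rulesB, List.mem_append] at hr
  rcases hr with hr | hr
  · exact List.all_eq_true.1 tkB_0 r hr
  · exact List.all_eq_true.1 tkB_1 r hr

theorem hcB : ∀ z, CB.cen z = true → ev g (CB.wd z) = 1 := by
  intro z hz
  refine tr1 ?_
  cases z <;> first | (exact absurd hz (by decide)) | decide +kernel

theorem lvB {Γ : Type} [Group Γ] [Finite Γ] {σ : Γ →* Cfsg.Spor.Suz} {f : X → Γ} (h : Lifts σ 4 nn g f) (hi0 : Inj g f SD) :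
    Nat.card (Kl f SB) ≤ 416 * Nat.card (Kl f TB) := by
  have hh : CB.Holds f := holdsF (Ss := [SD]) h (by intro S hS; simp only [List.mem_cons, List.mem_nil_iff, or_false] at hS; rcases hS with rfl <;> assumption) rfl (fun _ h => absurd (show false = true from h) (by decide)) rfl (by decide +kernel) htB hcB
  obtain ⟨hinv, hrel⟩ := CP.relOK hh (inv := TCMSzB.inv) (mm := TCMSzB.mm) (ex := TCMSzB.extra) (by intro x; cases x <;> decide +kernel)
    (by intro x y; cases x <;> cases y <;> decide +kernel) (by decide +kernel)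
  exact level (subs := TCMSzB.subs) (fun H hH => TCMSzB.main hinv hrel.1 hrel.2 hH) (by decide +kernel) (by
    intro x hx
    fin_cases x
    · exact ⟨.a, rfl⟩
    · exact ⟨.b, rfl⟩
    · exact ⟨.c, rfl⟩
    · exact ⟨.d, rfl⟩
    · exact ⟨.t, rfl⟩
    · exact absurd hx (by decide))

theorem lvdB {P' : Type} [Group P'] [Finite P'] {f : X → P'} (hiv : ∀ x, CB.iv x = true → f x * f x = 1)
    (ht : ∀ r ∈ rulesB, ev f (r.word nn) = 1) :
    Nat.card (Kl f SB) ≤ 416 * Nat.card (Kl f TB) := by
  have hh : CB.Holds f := holdsDF (rules := rulesB) (n := nn) hiv rfl ht (fun z hz => absurd hz (by cases z <;> decide)) (fun z hz => absurd hz (by cases z <;> decide))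
  obtain ⟨hinv, hrel⟩ := CP.relOK hh (inv := TCMSzB.inv) (mm := TCMSzB.mm) (ex := TCMSzB.extra) (by intro x; cases x <;> decide +kernel)
    (by intro x y; cases x <;> cases y <;> decide +kernel) (by decide +kernel)
  exact level (subs := TCMSzB.subs) (fun H hH => TCMSzB.main hinv hrel.1 hrel.2 hH) (by decide +kernel) (by
    intro x hx
    fin_cases x
    · exact ⟨.a, rfl⟩
    · exact ⟨.b, rfl⟩
    · exact ⟨.c, rfl⟩
    · exact ⟨.d, rfl⟩
    · exact ⟨.t, rfl⟩
    · exact absurd hx (by decide))
/-- letters of level A -/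
def SA : X → Bool := ![true, true, true, true, true, true]

/-- lower letters of level A -/
def TA : X → Bool := ![true, true, true, true, true, false]

def wdA : TCMSzA.Lt → W X
  | .a => [(0, true)]
  | .ai => [(0, false)]
  | .b => [(1, true)]
  | .bi => [(1, false)]
  | .c => [(2, true)]
  | .ci => [(2, false)]
  | .d => [(3, true)]
  | .di => [(3, false)]
  | .t => [(4, true)]
  | .ti => [(4, false)]
  | .T => [(5, true)]
  | .Ti => [(5, false)]
  | .z => [(5, true), (4, false), (1, true), (0, true), (1, true), (2, true), (4, true), (0, false), (2, true), (3, true), (1, true), (5, true), (4, false), (1, true), (0, true), (1, true), (2, true), (4, true), (0, false), (2, true), (3, true), (1, true), (5, true), (4, false), (1, true), (0, true), (1, true), (2, true), (4, true), (0, false), (2, true), (3, true), (1, true), (5, true), (4, false), (1, true), (0, true), (1, true), (2, true), (4, true), (0, false), (2, true), (3, true), (1, true)]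
  | .zi => [(1, false), (3, false), (2, false), (0, true), (4, false), (2, false), (1, false), (0, false), (1, false), (4, true), (5, false), (1, false), (3, false), (2, false), (0, true), (4, false), (2, false), (1, false), (0, false), (1, false), (4, true), (5, false), (1, false), (3, false), (2, false), (0, true), (4, false), (2, false), (1, false), (0, false), (1, false), (4, true), (5, false), (1, false), (3, false), (2, false), (0, true), (4, false), (2, false), (1, false), (0, false), (1, false), (4, true), (5, false)]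

def rulesA_0 : List (Rule X) := [
  .conj [(0, false), (2, true)] [(5, false)] [(5, false)] 3,
  .conj [(0, false), (2, false)] [(5, false)] [(5, false)] 3,
  .conj [(1, true), (2, true)] [(5, true)] [(5, true)] 3,
  .conj [(1, true), (2, false)] [(4, true)] [(4, true)] 3,
  .conj [(1, false), (4, true)] [(1, true)] [(3, false)] 3,
  .conj [(1, false), (4, true)] [(3, false)] [(4, false)] 3]

def rulesA_1 : List (Rule X) := [
  .conj [(2, true), (3, true)] [(2, true)] [(3, true)] 3,
  .conj [(3, true), (0, false)] [(3, true)] [(0, false)] 3,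
  .conj [(3, true), (4, true)] [(0, true)] [(0, false)] 3,
  .conj [(4, true), (5, true)] [(3, true)] [(3, false)] 3,
  .conj [(5, true), (4, false)] [(5, true)] [(4, false)] 3,
  .low [(0, true), (2, true), (0, true), (2, false), (0, false), (2, false)]]

def rulesA_2 : List (Rule X) := [
  .low [(0, true), (1, true), (0, false), (1, true), (0, true), (1, false)]]

def rulesA : List (Rule X) := rulesA_0 ++ rulesA_1 ++ rulesA_2

def cenA : TCMSzA.Lt → Bool
  | .z => true
  | .zi => true
  | _ => false

def CA : CP X TCMSzA.Lt where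
  iv := fun _ => false
  wd := wdA
  cen := cenA
  q := 4
  exact := rulesA.map fun r => nrm (fun _ => false) (red (fun _ => false) (r.word nn))

theorem tkA_0 : (rulesA_0.all (Rule.chk nn ck)) = true := by decide +kernel

theorem tkA_1 : (rulesA_1.all (Rule.chk nn ck)) = true := by decide +kernel

theorem tkA_2 : (rulesA_2.all (Rule.chk nn ck)) = true := by decide +kernel

theorem htA : ∀ r ∈ rulesA, ∀ w ∈ r.needs nn, ev g w = 1 := by
  intro r hr
  refine Rule.needs_of_chk tr ?_
  simp only [rulesA, List.mem_append] at hr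
  rcases hr with (hr | hr) | hr
  · exact List.all_eq_true.1 tkA_0 r hr
  · exact List.all_eq_true.1 tkA_1 r hr
  · exact List.all_eq_true.1 tkA_2 r hr

theorem hcA : ∀ z, CA.cen z = true → ev g (CA.wd z) = 1 := by
  intro z hz
  refine tr1 ?_
  cases z <;> first | (exact absurd hz (by decide)) | decide +kernel

theorem lvA {Γ : Type} [Group Γ] [Finite Γ] {σ : Γ →* Cfsg.Spor.Suz} {f : X → Γ} (h : Lifts σ 4 nn g f) (hi0 : Inj g f SD) :
    Nat.card (Kl f SA) ≤ 1782 * Nat.card (Kl f TA) := by
  have hh : CA.Holds f := holdsF (Ss := [SD]) h (by intro S hS; simp only [List.mem_cons, List.mem_nil_iff, or_false] at hS; rcases hS with rfl <;> assumption) rfl (fun _ h => absurd (show false = true from h) (by decide)) rfl (by decide +kernel) htA hcA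
  obtain ⟨hinv, hrel⟩ := CP.relOK hh (inv := TCMSzA.inv) (mm := TCMSzA.mm) (ex := TCMSzA.extra) (by intro x; cases x <;> decide +kernel)
    (by intro x y; cases x <;> cases y <;> decide +kernel) (by decide +kernel)
  exact level (subs := TCMSzA.subs) (fun H hH => TCMSzA.main hinv hrel.1 hrel.2 hH) (by decide +kernel) (by
    intro x hx
    fin_cases x
    · exact ⟨.a, rfl⟩
    · exact ⟨.b, rfl⟩
    · exact ⟨.c, rfl⟩
    · exact ⟨.d, rfl⟩
    · exact ⟨.t, rfl⟩
    · exact ⟨.T, rfl⟩)

theorem lvdA {P' : Type} [Group P'] [Finite P'] {f : X → P'} (hiv : ∀ x, CA.iv x = true → f x * f x = 1)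
    (ht : ∀ r ∈ rulesA, ev f (r.word nn) = 1)
    (hcen : ∀ z, CA.cen z = true → ∀ y : P', ev f (CA.wd z) * y = y * ev f (CA.wd z))
    (hpow : ∀ z, CA.cen z = true → ev f (CA.wd z) ^ CA.q = 1) :
    Nat.card (Kl f SA) ≤ 1782 * Nat.card (Kl f TA) := by
  have hh : CA.Holds f := holdsDF (rules := rulesA) (n := nn) hiv rfl ht hcen hpow
  obtain ⟨hinv, hrel⟩ := CP.relOK hh (inv := TCMSzA.inv) (mm := TCMSzA.mm) (ex := TCMSzA.extra) (by intro x; cases x <;> decide +kernel)
    (by intro x y; cases x <;> cases y <;> decide +kernel) (by decide +kernel)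
  exact level (subs := TCMSzA.subs) (fun H hH => TCMSzA.main hinv hrel.1 hrel.2 hH) (by decide +kernel) (by
    intro x hx
    fin_cases x
    · exact ⟨.a, rfl⟩
    · exact ⟨.b, rfl⟩
    · exact ⟨.c, rfl⟩
    · exact ⟨.d, rfl⟩
    · exact ⟨.t, rfl⟩
    · exact ⟨.T, rfl⟩)
/-- letters of level E -/
def SE : X → Bool := ![true, true, true, true, false, false]

/-- lower letters of level E -/
def TE : X → Bool := ![true, true, true, false, false, false]

def wdE : TCMSzE.Lt → W X
  | .a => [(0, true)]
  | .ai => [(0, false)]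
  | .b => [(1, true)]
  | .bi => [(1, false)]
  | .c => [(2, true)]
  | .ci => [(2, false)]
  | .d => [(3, true)]
  | .di => [(3, false)]

def rulesE_0 : List (Rule X) := [
  .low [(2, true), (3, true), (2, true), (3, false), (2, false), (3, false)],
  .low [(3, true), (0, false), (3, true), (0, true), (3, false), (0, true)],
  .low [(0, true), (2, true), (0, true), (2, false), (0, false), (2, false)],
  .low [(0, true), (1, true), (0, false), (1, true), (0, true), (1, false)],
  .low [(3, false), (1, false), (2, false), (0, true), (3, true), (0, true), (1, false), (2, false)],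
  .low [(1, true), (3, false), (1, true), (3, false)]]

def rulesE_1 : List (Rule X) := [
  .low [(0, true), (3, false), (0, true), (3, false), (0, true), (3, false)],
  .low [(1, true), (3, true), (1, true), (3, true), (1, true), (3, true)]]

def rulesE : List (Rule X) := rulesE_0 ++ rulesE_1

def cenE : TCMSzE.Lt → Bool
  | _ => false

def CE : CP X TCMSzE.Lt where
  iv := fun _ => false
  wd := wdE
  cen := cenE
  q := 4
  exact := rulesE.map fun r => nrm (fun _ => false) (red (fun _ => false) (r.word nn))

theorem lvdE {P' : Type} [Group P'] [Finite P'] {f : X → P'} (hiv : ∀ x, CE.iv x = true → f x * f x = 1)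
    (ht : ∀ r ∈ rulesE, ev f (r.word nn) = 1) :
    Nat.card (Kl f SE) ≤ 100 * Nat.card (Kl f TE) := by
  have hh : CE.Holds f := holdsDF (rules := rulesE) (n := nn) hiv rfl ht (fun z hz => absurd hz (by cases z <;> decide)) (fun z hz => absurd hz (by cases z <;> decide))
  obtain ⟨hinv, hrel⟩ := CP.relOK hh (inv := TCMSzE.inv) (mm := TCMSzE.mm) (ex := TCMSzE.extra) (by intro x; cases x <;> decide +kernel)
    (by intro x y; cases x <;> cases y <;> decide +kernel) (by decide +kernel)
  exact level (subs := TCMSzE.subs) (fun H hH => TCMSzE.main hinv hrel.1 hrel.2 hH) (by decide +kernel) (by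
    intro x hx
    fin_cases x
    · exact ⟨.a, rfl⟩
    · exact ⟨.b, rfl⟩
    · exact ⟨.c, rfl⟩
    · exact ⟨.d, rfl⟩
    · exact absurd hx (by decide)
    · exact absurd hx (by decide))
theorem gen : Kl g SA = ⊤ := by
  refine top_of_gens genP ?_
  intro a
  cases a
  · exact ⟨[(0, true), (2, false), (3, false), (4, false), (2, false), (0, false), (1, false), (0, false), (2, false), (3, true), (2, false), (4, false), (1, true), (0, false)], by decide, ln.gen hinj hbp' (net := NSuz.net) (by decide +kernel)⟩
  · exact ⟨[(3, true), (2, true), (0, false), (4, false), (2, false), (4, false), (0, false), (1, false), (4, true), (3, true), (2, true), (0, true), (3, false), (2, true), (0, true)], by decide, ln.gen hinj hbp' (net := NSuz.net) (by decide +kernel)⟩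
  · exact ⟨[(0, true), (2, false), (0, true), (1, true), (4, true), (0, true), (3, false), (2, false), (0, true), (3, false), (2, false), (4, false), (1, true), (0, false)], by decide, ln.gen hinj hbp' (net := NSuz.net) (by decide +kernel)⟩
  · exact ⟨[(2, true), (1, false), (3, false), (4, false), (2, false), (0, true), (4, true), (0, true), (2, true), (4, true), (0, true), (1, false), (2, false)], by decide, ln.gen hinj hbp' (net := NSuz.net) (by decide +kernel)⟩
  · exact ⟨[(3, false), (4, false), (2, false), (0, true), (3, false), (2, false), (1, true), (4, false), (0, false), (2, true), (4, true), (3, true)], by decide, ln.gen hinj hbp' (net := NSuz.net) (by decide +kernel)⟩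
  · exact ⟨[(2, false), (0, true), (3, false), (2, false), (1, false), (0, true), (4, false), (2, false), (0, true), (2, false), (4, true), (0, false), (3, true), (0, false), (2, true)], by decide, ln.gen hinj hbp' (net := NSuz.net) (by decide +kernel)⟩
  · exact ⟨[(0, true), (4, false), (2, false), (3, false), (4, false), (2, false), (0, true), (5, false), (4, true), (1, true), (0, false), (3, true), (5, true), (2, true), (4, true), (3, true), (2, true), (0, false), (4, true)], by decide, ln.gen hinj hbp' (net := NSuz.net) (by decide +kernel)⟩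
theorem card_top : Nat.card (Kl g SA) = 448345497600 := by
  rw [gen, Nat.card_congr (Subgroup.topEquiv (G := Cfsg.Spor.Suz)).toEquiv, card_inj.1]
theorem htE : ∀ r ∈ rulesE, ev g (r.word nn) = 1 := by
  intro r hr
  have h : ∀ r ∈ rulesE, ck (r.word nn) 1 = true := by
    rw [← List.all_eq_true]
    decide +kernel
  exact tr1 (h r hr)
theorem card_low : 6048 ≤ Nat.card (Kl g SD) := by
  haveI : Finite Cfsg.Spor.Suz := SuzMain.fin
  have g0 := lvA (Lifts.self (q := 4) hord) (Inj.self SD)
  have g1 := lvB (Lifts.self (q := 4) hord) (Inj.self SD)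
  have g2 := lvdE (f := g) (fun _ h => absurd (show false = true from h) (by decide)) htE
  have e0 : Kl g TA = Kl g SB := by congr 1
  have e1 : Kl g TB = Kl g SE := by congr 1
  have e2 : Kl g TE = Kl g SD := by congr 1
  rw [card_top, e0] at g0
  rw [e1] at g1
  rw [e2] at g2
  omega
theorem bound (Γ : Type) [Group Γ] [Finite Γ] (σ : Γ →* Cfsg.Spor.Suz) (f : X → Γ) (h : Lifts σ 4 nn g f) :
    Nat.card (Kl f SA) ≤ 896690995200 := by
  haveI : Finite Cfsg.Spor.Suz := SuzMain.fin
  have c1 : Nat.card (Kl f TD) ≤ 3 := card_Kl_one (x0 := 0) (by decide) (by norm_num) (h.ord 0)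
  have f3 := lvD h (h.inj_one' (x0 := 0) (by decide) (by decide))
  have k := card_low
  have i0 : Inj g f SD := h.inj (by omega)
  have f0 := lvA h i0
  have f1 := lvB h i0
  have f2 := lvC h i0
  have e0 : Kl f TA = Kl f SB := by congr 1
  have e1 : Kl f TB = Kl f SC := by congr 1
  have e2 : Kl f TC = Kl f SD := by congr 1
  rw [e0] at f0
  rw [e1] at f1
  rw [e2] at f2
  omega
theorem noExt4 : NoExt Cfsg.Spor.Suz 4 := by
  haveI : Finite Cfsg.Spor.Suz := SuzMain.fin
  exact noExt_of_bound (q := 4) (by norm_num) hord hn gen bound (by rw [card_inj.1]; norm_num)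
theorem exp : ∃ p : X → FS 16, LetNet 16 (FS 16).subtype p NXSzP.netX := exists_letNet NXSzP.bpx NXSzP.invx
noncomputable def pp : X → FS 16 := exp.choose
theorem lnp : LetNet 16 (FS 16).subtype pp NXSzP.netX := exp.choose_spec
noncomputable def ckp (w : W X) (m : ℕ) : Bool := chkW NXSzP.netX 16 w m 0 16
theorem trp (w : W X) (m : ℕ) (h : ckp w m = true) : (ev pp w) ^ m = 1 := lnp.pow_one (FS 16).subtype_injective h
theorem pord (x : X) : pp x ^ nn x = 1 := by
  have h : ∀ x, ckp [(x, true)] (nn x) = true := by intro x; fin_cases x <;> decide +kernel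
  have h1 := trp _ _ (h x)
  change (pp x * 1) ^ nn x = 1 at h1
  rwa [mul_one] at h1
theorem pt2 {w : W X} (h : (ck w 1 && ckp w 1) = true) : ev (pr pp g) w = 1 := by
  rw [Bool.and_eq_true] at h
  rw [ev_pr, tr1 h.1, show ev pp w = 1 by simpa using trp w 1 h.2]
  rfl
def zw : W X := [(1, true), (3, false), (1, true), (3, false)]
theorem zw_order : orderOf (ev pp zw) = 2 := by
  have h := orderOf_eq_prime_pow (x := ev pp zw) (p := 2) (n := 0) ?_ ?_
  · simpa using h
  · rw [pow_zero, pow_one]
    exact lnp.ne_one (V := 1) (by decide +kernel)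
  · rw [show (2 : ℕ) ^ (0 + 1) = 2 by norm_num]
    exact trp zw 2 (by decide +kernel)
theorem zw_comm (x : X) : pp x * ev pp zw = ev pp zw * pp x :=
  lnp.comm (FS 16).subtype_injective (by fin_cases x <;> decide +kernel)
theorem htdA : ∀ r ∈ rulesA, ev (pr pp g) (r.word nn) = 1 := by
  intro r hr
  have h : ∀ r ∈ rulesA, (ck (r.word nn) 1 && ckp (r.word nn) 1) = true := by
    rw [← List.all_eq_true]
    decide +kernel
  exact pt2 (h r hr)
theorem htdB : ∀ r ∈ rulesB, ev (pr pp g) (r.word nn) = 1 := by
  intro r hr
  have h : ∀ r ∈ rulesB, (ck (r.word nn) 1 && ckp (r.word nn) 1) = true := by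
    rw [← List.all_eq_true]
    decide +kernel
  exact pt2 (h r hr)
theorem htdC : ∀ r ∈ rulesC, ev (pr pp g) (r.word nn) = 1 := by
  intro r hr
  have h : ∀ r ∈ rulesC, (ck (r.word nn) 1 && ckp (r.word nn) 1) = true := by
    rw [← List.all_eq_true]
    decide +kernel
  exact pt2 (h r hr)
theorem htdD : ∀ r ∈ rulesD, ev (pr pp g) (r.word nn) = 1 := by
  intro r hr
  have h : ∀ r ∈ rulesD, (ck (r.word nn) 1 && ckp (r.word nn) 1) = true := by
    rw [← List.all_eq_true]
    decide +kernel
  exact pt2 (h r hr)
theorem hcA1 : ∀ z, CA.cen z = true → ev (pr pp g) (CA.wd z) = 1 := by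
  intro z hz
  refine pt2 ?_
  cases z <;> first | (exact absurd hz (by decide)) | decide +kernel
theorem card_E : Nat.card (EE pp g SA) ≤ 2 * Nat.card Cfsg.Spor.Suz := by
  haveI : Finite Cfsg.Spor.Suz := SuzMain.fin
  have f0 := lvdA (f := pr pp g) (fun _ h => absurd (show false = true from h) (by decide)) htdA
    (fun z hz y => by rw [hcA1 z hz, one_mul, mul_one]) (fun z hz => by rw [hcA1 z hz, one_pow])
  have f1 := lvdB (f := pr pp g) (fun _ h => absurd (show false = true from h) (by decide)) htdB
  have f2 := lvdC (f := pr pp g) (fun _ h => absurd (show false = true from h) (by decide)) htdC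
  have f3 := lvdD (f := pr pp g) (fun _ h => absurd (show false = true from h) (by decide)) htdD
  have e0 : Kl (pr pp g) TA = Kl (pr pp g) SB := by congr 1
  have e1 : Kl (pr pp g) TB = Kl (pr pp g) SC := by congr 1
  have e2 : Kl (pr pp g) TC = Kl (pr pp g) SD := by congr 1
  rw [e0] at f0
  rw [e1] at f1
  rw [e2] at f2
  have c1 : Nat.card (Kl (pr pp g) TD) ≤ 3 := card_Kl_one (x0 := 0) (by decide) (by norm_num) (by
    apply Prod.ext
    · exact pord 0
    · exact hord 0)
  rw [card_inj.1]
  change Nat.card (Kl (pr pp g) SA) ≤ _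
  omega
theorem perf : commutator Cfsg.Spor.Suz = ⊤ := by
  refine perfect_of (n := nn) gen hord [(0, [(3, true), (4, true), (0, true), (4, false), (3, false), (0, true)]), (3, [(3, true), (0, false), (3, true), (0, true), (3, false), (0, true)]), (1, [(1, false), (4, true), (1, true), (4, false), (1, true), (3, true)]), (4, [(1, false), (4, true), (3, false), (4, false), (1, true), (4, true)]), (2, [(2, true), (3, true), (2, true), (3, false), (2, false), (3, false)]), (5, [(5, true), (4, false), (5, true), (4, true), (5, false), (4, true)])] (by decide +kernel) ?_ ?_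
  · intro a ha
    fin_cases ha <;> exact tr1 (by decide +kernel)
  · intro x _
    fin_cases x <;> decide
theorem ex2 : ∃ (Γ : Type) (_ : Group Γ) (_ : Finite Γ) (σ : Γ →* Cfsg.Spor.Suz), Cfsg.IsStemExtension σ ∧
      Nonempty (σ.ker ≃* Multiplicative (ZMod 2)) := by
  haveI : Finite Cfsg.Spor.Suz := SuzMain.fin
  exact exists_cover (p := pp) (g := g) (S := SA) (n := nn) (by norm_num) gen perf card_E zw (by decide)
    (tr1 (by decide +kernel)) zw_order (fun x _ => zw_comm x) (fun x _ => pord x) (fun x _ => hord x) (fun x _ => by fin_cases x <;> decide)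
end H35.MulSuzA
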