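import Mathlib
import Cfsg.Agent.Lib.H35.StemRule
import Cfsg.Agent.Lib.H35.StemCover

/-!
# Stem extensions: relations between involutions (odd primes), the group generated by the letters as a type
-/

set_option autoImplicit false
set_option linter.all false

namespace H35.Stem
open Subgroup

section
variable {X Γ G : Type} [Group Γ] [Group G] {σ : Γ →* G} {q : ℕ} {n : X → ℕ} {g : X → G} {f : X → Γ}

/-- a relation of `G` holds for the lifts if a power prime to `q` of its value is trivial -/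
theorem Lifts.one_of_pow (h : Lifts σ q n g f) {w : W X} (hg : Stem.ev g w = 1) {m : ℕ} (hm : Nat.Coprime m q)
    (hp : (Stem.ev f w) ^ m = 1) : Stem.ev f w = 1 := by
  have h1 : Stem.ev f w ∈ σ.ker := by rw [MonoidHom.mem_ker, h.ev, hg]
  have h2 := h.pow _ h1
  have h3 : orderOf (Stem.ev f w) ∣ Nat.gcd m q :=
    Nat.dvd_gcd (orderOf_dvd_of_pow_eq_one hp) (orderOf_dvd_of_pow_eq_one h2)
  rw [show Nat.gcd m q = 1 from hm, Nat.dvd_one, orderOf_eq_one_iff] at h3
  exact h3

/-- **dihedral relations are exact** for odd `q` -/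
theorem Lifts.dih (h : Lifts σ q n g f) (hq : Nat.Coprime 2 q) {u v : W X} {m : ℕ}
    (hu : Stem.ev f u * Stem.ev f u = 1) (hv : Stem.ev f v * Stem.ev f v = 1)
    (hg : Stem.ev g (rep (u ++ v) m) = 1) : Stem.ev f (rep (u ++ v) m) = 1 := by
  have h1 : Stem.ev f (rep (u ++ v) m) ∈ σ.ker := by rw [MonoidHom.mem_ker, h.ev, hg]
  have hc := mem_center_iff.1 (h.cen h1)
  refine h.one_of_pow hg hq ?_
  have e : Stem.ev f (rep (u ++ v) m) = (Stem.ev f u * Stem.ev f v) ^ m := by rw [ev_rep, ev_append]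
  rw [e] at hc ⊢
  set a := Stem.ev f u
  set b := Stem.ev f v
  have ha : a⁻¹ = a := inv_eq_of_mul_eq_one_left hu
  have hb : b⁻¹ = b := inv_eq_of_mul_eq_one_left hv
  have h2 : a * (a * b) ^ m * a⁻¹ = ((a * b) ^ m)⁻¹ := by
    rw [← conj_pow, ← inv_pow]
    congr 1
    rw [mul_inv_rev, ha, hb, ← mul_assoc, hu, one_mul]
  have h3 : a * (a * b) ^ m * a⁻¹ = (a * b) ^ m := by rw [hc a, mul_assoc, mul_inv_cancel, mul_one]
  rw [h3] at h2
  rw [pow_two]
  nth_rewrite 1 [h2]
  exact inv_mul_cancel _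

/-- Coxeter relations -/
def cxw (p : X × X × ℕ) : W X := rep ([(p.1, true)] ++ [(p.2.1, true)]) p.2.2

theorem Lifts.cox (h : Lifts σ q n g f) (hq : Nat.Coprime 2 q) (hn : ∀ x, n x = 2) {l : List (X × X × ℕ)}
    (hl : ∀ p ∈ l, Stem.ev g (cxw p) = 1) : ∀ p ∈ l, Stem.ev f (cxw p) = 1 := by
  intro p hp
  have hs : ∀ x, Stem.ev f [(x, true)] * Stem.ev f [(x, true)] = 1 := by
    intro x
    have h1 := h.ord x
    rw [hn, pow_two] at h1
    change (f x * 1) * (f x * 1) = 1
    rw [mul_one]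
    exact h1
  exact h.dih hq (hs _) (hs _) (hl p hp)

end

section
variable {X P : Type} [Group P]

/-- the letters as elements of the group generated by them -/
def fK (f : X → P) (S : X → Bool) (hS : ∀ x, S x = true) : X → Kl f S := fun x => ⟨f x, mem_Kl (hS x)⟩

theorem ev_fK (f : X → P) (S : X → Bool) (hS : ∀ x, S x = true) (w : W X) :
    ((Stem.ev (fK f S hS) w : Kl f S) : P) = Stem.ev f w :=
  ev_hom (Kl f S).subtype (fK f S hS) w

theorem map_fK (f : X → P) (S : X → Bool) (hS : ∀ x, S x = true) (T : X → Bool) :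
    (Kl (fK f S hS) T).map (Kl f S).subtype = Kl f T := by
  rw [map_Kl]
  rfl

theorem card_fK (f : X → P) (S : X → Bool) (hS : ∀ x, S x = true) (T : X → Bool) :
    Nat.card (Kl (fK f S hS) T) = Nat.card (Kl f T) := by
  rw [← map_fK f S hS T]
  exact Nat.card_congr ((Kl (fK f S hS) T).equivMapOfInjective _ (Kl f S).subtype_injective).toEquiv

theorem comm_fK (f : X → P) (S : X → Bool) (hS : ∀ x, S x = true) {w : W X}
    (hc : ∀ x, f x * Stem.ev f w = Stem.ev f w * f x) (y : Kl f S) :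
    Stem.ev (fK f S hS) w * y = y * Stem.ev (fK f S hS) w := by
  apply Subtype.ext
  have h1 : Kl f S ≤ centralizer {Stem.ev f w} := by
    rw [Kl, closure_le]
    rintro _ ⟨x, -, rfl⟩
    rw [SetLike.mem_coe, mem_centralizer_singleton_iff]
    exact hc x
  have h2 := mem_centralizer_singleton_iff.1 (h1 y.2)
  change ((Stem.ev (fK f S hS) w : Kl f S) : P) * (y : P) = (y : P) * ((Stem.ev (fK f S hS) w : Kl f S) : P)
  rw [ev_fK]
  exact h2.symm

theorem card_Kl_none [Finite P] {f : X → P} {S : X → Bool} (hS : ∀ x, S x = false) : Nat.card (Kl f S) = 1 := by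
  have h : Kl f S = ⊥ := by
    rw [Kl, closure_eq_bot_iff]
    rintro _ ⟨x, hx, rfl⟩
    rw [hS] at hx
    exact absurd hx (by decide)
  rw [h]
  exact Subgroup.card_bot

end
end H35.Stem
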