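import Mathlib
import Cfsg.Agent.Lib.H35.StemFS
import Cfsg.Agent.Lib.H35.StemStep
import Cfsg.Agent.Lib.H35.StemDih
import Cfsg.Agent.Lib.H35.NXSoA
import Cfsg.Agent.Lib.H35.NXSoP
import Cfsg.Agent.Lib.H35.SuzMain
import Cfsg.Agent.Lib.H35.MulSuzA
import Cfsg.Agent.Lib.H35.TCMSoA

/-!
# The Schur multiplier of Suz: the primes 3 and 5
-/
set_option autoImplicit false
set_option maxRecDepth 100000
set_option linter.all false
set_option Elab.async false
namespace H35.MulSuzC
open Subgroup H35.Stem H35.TC H35.Net H35.SuzMain H35.NXSoA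
abbrev X := Fin 7
/-- exponents of the letters -/
def nn : X → ℕ := fun _ => 2
/-- words of the letters -/
def d : X → List LA
  | 0 => [.a]
  | 1 => [.b]
  | 2 => [.c]
  | 3 => [.d]
  | 4 => [.e]
  | 5 => [.f]
  | 6 => [.g]
/-- the letters -/
noncomputable def g (x : X) : Cfsg.Spor.Suz := ((d x).map gP).prod
theorem hbp' : ∀ x, BP (2 ^ 11) (NSuz.net x) (φ (gP x)) := by
  intro x
  rw [hφ]
  exact NSuz.hbp x
theorem ln : LetNet 11 φ g netX := letNet_of hbp' bpx invx (by intro x; fin_cases x <;> decide +kernel)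
theorem hinj : Function.Injective φ := card_inj.2
noncomputable def ck (w : W X) (m : ℕ) : Bool := chkW netX 11 w m 0 11
theorem tr (w : W X) (m : ℕ) (h : ck w m = true) : (ev g w) ^ m = 1 := ln.pow_one hinj h
theorem tr1 {w : W X} (h : ck w 1 = true) : ev g w = 1 := ln.ev_one hinj h
theorem hord (x : X) : g x ^ nn x = 1 := by
  have h : ∀ x, ck [(x, true)] (nn x) = true := by intro x; fin_cases x <;> decide +kernel
  have h1 := tr _ _ (h x)
  change (g x * 1) ^ nn x = 1 at h1
  rwa [mul_one] at h1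
theorem hn : ∀ x, Nat.Coprime (nn x) 45 := by decide
theorem c2 : Nat.Coprime 2 45 := by norm_num
/-- Coxeter relations -/
def cx : List (X × X × ℕ) := [(0, 0, 1), (0, 1, 5), (0, 2, 2), (0, 3, 2), (0, 4, 2), (0, 5, 2), (0, 6, 2), (1, 0, 5), (1, 1, 1), (1, 2, 3), (1, 3, 2), (1, 4, 2), (1, 5, 3), (1, 6, 3), (2, 0, 2), (2, 1, 3), (2, 2, 1), (2, 3, 8), (2, 4, 2), (2, 5, 2), (2, 6, 2), (3, 0, 2), (3, 1, 2), (3, 2, 8), (3, 3, 1), (3, 4, 3), (3, 5, 2), (3, 6, 2), (4, 0, 2), (4, 1, 2), (4, 2, 2), (4, 3, 3), (4, 4, 1), (4, 5, 2), (4, 6, 2), (5, 0, 2), (5, 1, 3), (5, 2, 2), (5, 3, 2), (5, 4, 2), (5, 5, 1), (5, 6, 4), (6, 0, 2), (6, 1, 3), (6, 2, 2), (6, 3, 2), (6, 4, 2), (6, 5, 4), (6, 6, 1)]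
def W1 : W X := rep ([(0, true)] ++ rep [(3, true), (2, true)] 4) 1
def W2 : W X := rep ([(0, true)] ++ rep [(6, true), (5, true)] 2) 1
def W3 : W X := rep ([(0, true)] ++ [(1, true), (2, true), (5, true)]) 5
def W4 : W X := rep (rep [(1, true), (2, true), (3, true), (2, true), (3, true)] 5 ++ [(4, true)]) 3
def zw : W X := rep [(1, true), (5, true), (6, true)] 5
def S7 : X → Bool := fun _ => true
def S6 : X → Bool := ![true, true, true, true, true, true, false]
def S5 : X → Bool := ![true, true, true, true, true, false, false]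
def S4 : X → Bool := ![true, true, true, true, false, false, false]
def S2 : X → Bool := ![true, true, false, false, false, false, false]
def S0 : X → Bool := fun _ => false
theorem cxt : ∀ p ∈ cx, ev g (cxw p) = 1 := by
  intro p hp
  have h : ∀ p ∈ cx, ck (cxw p) 1 = true := by
    rw [← List.all_eq_true]
    decide +kernel
  exact tr1 (h p hp)
theorem sq3 {M : Type} [Group M] {x y z : M} (hz : z * z = 1) (hx : x * x = 1) (hy : y * y = 1)
    (hxy : x * y * (x * y) = 1) (hxz : x * z * (x * z) = 1) (hyz : y * z * (y * z) = 1) :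
    x * y * z * (x * y * z) = 1 := by
  have ix : x⁻¹ = x := inv_eq_of_mul_eq_one_left hx
  have iy : y⁻¹ = y := inv_eq_of_mul_eq_one_left hy
  have iz : z⁻¹ = z := inv_eq_of_mul_eq_one_left hz
  have e2 : x * z = z * x := by
    have := inv_eq_of_mul_eq_one_left hxz
    rw [mul_inv_rev, ix, iz] at this
    exact this.symm
  have e3 : y * z = z * y := by
    have := inv_eq_of_mul_eq_one_left hyz
    rw [mul_inv_rev, iy, iz] at this
    exact this.symm
  have e4 : x * y * z = z * (x * y) := by rw [mul_assoc, e3, ← mul_assoc, e2, mul_assoc]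
  nth_rewrite 1 [e4]
  calc z * (x * y) * (x * y * z) = z * (x * y * (x * y)) * z := by group
    _ = 1 := by rw [hxy, mul_one, hz]

theorem v4 {M : Type} [Group M] {u v e z : M} (hz : z = u * v * e) (hc : ∀ y, y * z = z * y) (hu : u * u = 1)
    (hv : v * v = 1) (he : e * e = 1) : z ^ 4 = 1 := by
  have iu : u⁻¹ = u := inv_eq_of_mul_eq_one_left hu
  have iv : v⁻¹ = v := inv_eq_of_mul_eq_one_left hv
  have ie : e⁻¹ = e := inv_eq_of_mul_eq_one_left he
  have e1 : u * v = z * e := by rw [hz, mul_assoc (u * v), he, mul_one]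
  have e2 : v * u = (z * e)⁻¹ := by rw [← e1, mul_inv_rev, iu, iv]
  have a1 : u * (z * e) * u = (z * e)⁻¹ := by rw [← e2, ← e1, ← mul_assoc, hu, one_mul]
  have a3 : u * (z * e) * u = z * (u * e * u) := by rw [← mul_assoc u z e, hc u]; simp only [mul_assoc]
  have a4 : (z * e)⁻¹ = z⁻¹ * e := by
    rw [mul_inv_rev, ie]
    have := (Commute.inv_right (show Commute e z from hc e))
    exact this
  have a5 : u * e * u = z⁻¹ * (z⁻¹ * e) := by
    rw [a1, a4] at a3
    rw [a3, ← mul_assoc, inv_mul_cancel, one_mul]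
  have a6 : (u * e * u) * (u * e * u) = 1 := by
    calc (u * e * u) * (u * e * u) = u * e * (u * u) * e * u := by simp only [mul_assoc]
      _ = 1 := by rw [hu, mul_one, mul_assoc u e e, he, mul_one, hu]
  rw [a5] at a6
  have c1 : Commute e z⁻¹ := Commute.inv_right (show Commute e z from hc e)
  have a7 : z⁻¹ * (z⁻¹ * e) * (z⁻¹ * (z⁻¹ * e)) = (z⁻¹) ^ 4 * (e * e) := by
    have k1 : e * (z⁻¹ * (z⁻¹ * e)) = z⁻¹ * (z⁻¹ * (e * e)) := by
      rw [← mul_assoc, c1.eq, mul_assoc, ← mul_assoc e, c1.eq, mul_assoc]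
    rw [mul_assoc, mul_assoc, k1]
    simp only [pow_succ, pow_zero, one_mul, mul_assoc]
  rw [a7, he, mul_one, inv_pow, inv_eq_one] at a6
  exact a6

section
variable {P : Type} [Group P] {f : X → P}
theorem sq1 (hcx : ∀ p ∈ cx, ev f (cxw p) = 1) (x : X) : f x * f x = 1 := by
  have h := hcx (x, x, 1) (by fin_cases x <;> decide)
  change f x * (f x * 1) = 1 at h
  rwa [mul_one] at h
theorem mkHolds {L : Type} {C : CP X L} {sp : List (W X)} (hcx : ∀ p ∈ cx, ev f (cxw p) = 1)
    (hex : C.exact = cx.map cxw ++ sp) (hsp : ∀ w ∈ sp, ev f w = 1)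
    (hcen : ∀ z, C.cen z = true → ∀ y : P, ev f (C.wd z) * y = y * ev f (C.wd z))
    (hpow : ∀ z, C.cen z = true → ev f (C.wd z) ^ C.q = 1) : C.Holds f := by
  refine ⟨fun x _ => sq1 hcx x, hcen, hpow, ?_⟩
  intro w hw
  rw [hex, List.mem_append] at hw
  rcases hw with hw | hw
  · obtain ⟨p, hp, rfl⟩ := List.mem_map.1 hw
    exact hcx p hp
  · exact hsp w hw
end

def wdE : TCDih5.Lt → W X
  | .a => [(0, true)]
  | .b => [(1, true)]

def cenE : TCDih5.Lt → Bool
  | _ => false

def CE : CP X TCDih5.Lt where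
  iv := fun _ => true
  wd := wdE
  cen := cenE
  q := 45
  exact := cx.map cxw ++ []

theorem lvE {P : Type} [Group P] [Finite P] {f : X → P} (hcx : ∀ p ∈ cx, ev f (cxw p) = 1)
    (hsp : ∀ w ∈ ([] : List (W X)), ev f w = 1) :
    Nat.card (Kl f S2) ≤ 10 * Nat.card (Kl f S0) := by
  have hh : CE.Holds f := mkHolds (sp := []) hcx rfl hsp (fun z hz => absurd hz (by cases z <;> decide)) (fun z hz => absurd hz (by cases z <;> decide))
  obtain ⟨hinv, hrel⟩ := CP.relOK hh (inv := TCDih5.inv) (mm := TCDih5.mm) (ex := TCDih5.extra) (by intro x; cases x <;> decide +kernel)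
    (by intro x y; cases x <;> cases y <;> decide +kernel) (by decide +kernel)
  exact level (subs := TCDih5.subs) (fun H hH => TCDih5.main hinv hrel.1 hrel.2 hH) (by decide +kernel) (by
    intro x hx
    fin_cases x
    · exact ⟨.a, rfl⟩
    · exact ⟨.b, rfl⟩
    · exact absurd hx (by decide)
    · exact absurd hx (by decide)
    · exact absurd hx (by decide)
    · exact absurd hx (by decide)
    · exact absurd hx (by decide))

def wdD : TCSuzD.Lt → W X
  | .a => [(0, true)]
  | .b => [(1, true)]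
  | .c => [(2, true)]
  | .d => [(3, true)]

def cenD : TCSuzD.Lt → Bool
  | _ => false

def CD : CP X TCSuzD.Lt where
  iv := fun _ => true
  wd := wdD
  cen := cenD
  q := 45
  exact := cx.map cxw ++ [W1]

theorem lvD {P : Type} [Group P] [Finite P] {f : X → P} (hcx : ∀ p ∈ cx, ev f (cxw p) = 1)
    (hsp : ∀ w ∈ ([W1] : List (W X)), ev f w = 1) :
    Nat.card (Kl f S4) ≤ 216 * Nat.card (Kl f S2) := by
  have hh : CD.Holds f := mkHolds (sp := [W1]) hcx rfl hsp (fun z hz => absurd hz (by cases z <;> decide)) (fun z hz => absurd hz (by cases z <;> decide))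
  obtain ⟨hinv, hrel⟩ := CP.relOK hh (inv := TCSuzD.inv) (mm := TCSuzD.mm) (ex := TCSuzD.extra) (by intro x; cases x <;> decide +kernel)
    (by intro x y; cases x <;> cases y <;> decide +kernel) (by decide +kernel)
  exact level (subs := TCSuzD.subs) (fun H hH => TCSuzD.main hinv hrel.1 hrel.2 hH) (by decide +kernel) (by
    intro x hx
    fin_cases x
    · exact ⟨.a, rfl⟩
    · exact ⟨.b, rfl⟩
    · exact ⟨.c, rfl⟩
    · exact ⟨.d, rfl⟩
    · exact absurd hx (by decide)
    · exact absurd hx (by decide)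
    · exact absurd hx (by decide))

def wdC : TCSuzC.Lt → W X
  | .a => [(0, true)]
  | .b => [(1, true)]
  | .c => [(2, true)]
  | .d => [(3, true)]
  | .e => [(4, true)]

def cenC : TCSuzC.Lt → Bool
  | _ => false

def CC : CP X TCSuzC.Lt where
  iv := fun _ => true
  wd := wdC
  cen := cenC
  q := 45
  exact := cx.map cxw ++ [W1, W4]

theorem lvC {P : Type} [Group P] [Finite P] {f : X → P} (hcx : ∀ p ∈ cx, ev f (cxw p) = 1)
    (hsp : ∀ w ∈ ([W1, W4] : List (W X)), ev f w = 1) :
    Nat.card (Kl f S5) ≤ 280 * Nat.card (Kl f S4) := by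
  have hh : CC.Holds f := mkHolds (sp := [W1, W4]) hcx rfl hsp (fun z hz => absurd hz (by cases z <;> decide)) (fun z hz => absurd hz (by cases z <;> decide))
  obtain ⟨hinv, hrel⟩ := CP.relOK hh (inv := TCSuzC.inv) (mm := TCSuzC.mm) (ex := TCSuzC.extra) (by intro x; cases x <;> decide +kernel)
    (by intro x y; cases x <;> cases y <;> decide +kernel) (by decide +kernel)
  exact level (subs := TCSuzC.subs) (fun H hH => TCSuzC.main hinv hrel.1 hrel.2 hH) (by decide +kernel) (by
    intro x hx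
    fin_cases x
    · exact ⟨.a, rfl⟩
    · exact ⟨.b, rfl⟩
    · exact ⟨.c, rfl⟩
    · exact ⟨.d, rfl⟩
    · exact ⟨.e, rfl⟩
    · exact absurd hx (by decide)
    · exact absurd hx (by decide))

def wdB : TCSuzB.Lt → W X
  | .a => [(0, true)]
  | .b => [(1, true)]
  | .c => [(2, true)]
  | .d => [(3, true)]
  | .e => [(4, true)]
  | .f => [(5, true)]

def cenB : TCSuzB.Lt → Bool
  | _ => false

def CB : CP X TCSuzB.Lt where
  iv := fun _ => true
  wd := wdB
  cen := cenB
  q := 45
  exact := cx.map cxw ++ [W1, W3, W4]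

theorem lvB {P : Type} [Group P] [Finite P] {f : X → P} (hcx : ∀ p ∈ cx, ev f (cxw p) = 1)
    (hsp : ∀ w ∈ ([W1, W3, W4] : List (W X)), ev f w = 1) :
    Nat.card (Kl f S6) ≤ 416 * Nat.card (Kl f S5) := by
  have hh : CB.Holds f := mkHolds (sp := [W1, W3, W4]) hcx rfl hsp (fun z hz => absurd hz (by cases z <;> decide)) (fun z hz => absurd hz (by cases z <;> decide))
  obtain ⟨hinv, hrel⟩ := CP.relOK hh (inv := TCSuzB.inv) (mm := TCSuzB.mm) (ex := TCSuzB.extra) (by intro x; cases x <;> decide +kernel)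
    (by intro x y; cases x <;> cases y <;> decide +kernel) (by decide +kernel)
  exact level (subs := TCSuzB.subs) (fun H hH => TCSuzB.main hinv hrel.1 hrel.2 hH) (by decide +kernel) (by
    intro x hx
    fin_cases x
    · exact ⟨.a, rfl⟩
    · exact ⟨.b, rfl⟩
    · exact ⟨.c, rfl⟩
    · exact ⟨.d, rfl⟩
    · exact ⟨.e, rfl⟩
    · exact ⟨.f, rfl⟩
    · exact absurd hx (by decide))

def wdA : TCMSoA.Lt → W X
  | .a => [(0, true)]
  | .b => [(1, true)]
  | .c => [(2, true)]
  | .d => [(3, true)]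
  | .e => [(4, true)]
  | .f => [(5, true)]
  | .g => [(6, true)]
  | .z => zw
  | .zi => winv zw

def cenA : TCMSoA.Lt → Bool
  | .z => true
  | .zi => true
  | _ => false

def CA : CP X TCMSoA.Lt where
  iv := fun _ => true
  wd := wdA
  cen := cenA
  q := 45
  exact := cx.map cxw ++ [W1, W2, W3, W4]

theorem lvA {P : Type} [Group P] [Finite P] {f : X → P} (hcx : ∀ p ∈ cx, ev f (cxw p) = 1)
    (hsp : ∀ w ∈ ([W1, W2, W3, W4] : List (W X)), ev f w = 1)
    (hcen : ∀ z, CA.cen z = true → ∀ y : P, ev f (CA.wd z) * y = y * ev f (CA.wd z))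
    (hpow : ∀ z, CA.cen z = true → ev f (CA.wd z) ^ CA.q = 1) :
    Nat.card (Kl f S7) ≤ 5346 * Nat.card (Kl f S6) := by
  have hh : CA.Holds f := mkHolds (sp := [W1, W2, W3, W4]) hcx rfl hsp hcen hpow
  obtain ⟨hinv, hrel⟩ := CP.relOK hh (inv := TCMSoA.inv) (mm := TCMSoA.mm) (ex := TCMSoA.extra) (by intro x; cases x <;> decide +kernel)
    (by intro x y; cases x <;> cases y <;> decide +kernel) (by decide +kernel)
  exact level (subs := TCMSoA.subs) (fun H hH => TCMSoA.main hinv hrel.1 hrel.2 hH) (by decide +kernel) (by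
    intro x hx
    fin_cases x
    · exact ⟨.a, rfl⟩
    · exact ⟨.b, rfl⟩
    · exact ⟨.c, rfl⟩
    · exact ⟨.d, rfl⟩
    · exact ⟨.e, rfl⟩
    · exact ⟨.f, rfl⟩
    · exact ⟨.g, rfl⟩)

def wdG : TCSuzA.Lt → W X
  | .a => [(0, true)]
  | .b => [(1, true)]
  | .c => [(2, true)]
  | .d => [(3, true)]
  | .e => [(4, true)]
  | .f => [(5, true)]
  | .g => [(6, true)]

def cenG : TCSuzA.Lt → Bool
  | _ => false

def CG : CP X TCSuzA.Lt where
  iv := fun _ => true
  wd := wdG
  cen := cenG
  q := 45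
  exact := cx.map cxw ++ [W1, W2, W3, W4, zw]

theorem lvG {P : Type} [Group P] [Finite P] {f : X → P} (hcx : ∀ p ∈ cx, ev f (cxw p) = 1)
    (hsp : ∀ w ∈ ([W1, W2, W3, W4, zw] : List (W X)), ev f w = 1) :
    Nat.card (Kl f S7) ≤ 1782 * Nat.card (Kl f S6) := by
  have hh : CG.Holds f := mkHolds (sp := [W1, W2, W3, W4, zw]) hcx rfl hsp (fun z hz => absurd hz (by cases z <;> decide)) (fun z hz => absurd hz (by cases z <;> decide))
  obtain ⟨hinv, hrel⟩ := CP.relOK hh (inv := TCSuzA.inv) (mm := TCSuzA.mm) (ex := TCSuzA.extra) (by intro x; cases x <;> decide +kernel)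
    (by intro x y; cases x <;> cases y <;> decide +kernel) (by decide +kernel)
  exact level (subs := TCSuzA.subs) (fun H hH => TCSuzA.main hinv hrel.1 hrel.2 hH) (by decide +kernel) (by
    intro x hx
    fin_cases x
    · exact ⟨.a, rfl⟩
    · exact ⟨.b, rfl⟩
    · exact ⟨.c, rfl⟩
    · exact ⟨.d, rfl⟩
    · exact ⟨.e, rfl⟩
    · exact ⟨.f, rfl⟩
    · exact ⟨.g, rfl⟩)

theorem gen : Kl g S7 = ⊤ := by
  refine top_of_gens genP ?_
  intro a
  cases a
  · exact ⟨[(0, true)], by decide, ln.gen hinj hbp' (net := NSuz.net) (by decide +kernel)⟩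
  · exact ⟨[(1, true)], by decide, ln.gen hinj hbp' (net := NSuz.net) (by decide +kernel)⟩
  · exact ⟨[(2, true)], by decide, ln.gen hinj hbp' (net := NSuz.net) (by decide +kernel)⟩
  · exact ⟨[(3, true)], by decide, ln.gen hinj hbp' (net := NSuz.net) (by decide +kernel)⟩
  · exact ⟨[(4, true)], by decide, ln.gen hinj hbp' (net := NSuz.net) (by decide +kernel)⟩
  · exact ⟨[(5, true)], by decide, ln.gen hinj hbp' (net := NSuz.net) (by decide +kernel)⟩
  · exact ⟨[(6, true)], by decide, ln.gen hinj hbp' (net := NSuz.net) (by decide +kernel)⟩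


section
variable {Γ : Type} [Group Γ] {σ : Γ →* Cfsg.Spor.Suz} {f : X → Γ}
theorem lcx (h : Lifts σ 45 nn g f) : ∀ p ∈ cx, ev f (cxw p) = 1 := h.cox c2 (fun _ => rfl) cxt
theorem ls1 (h : Lifts σ 45 nn g f) (x : X) : ev f [(x, true)] * ev f [(x, true)] = 1 := by
  change (f x * 1) * (f x * 1) = 1
  rw [mul_one]
  exact sq1 (lcx h) x
theorem sp1 (h : Lifts σ 45 nn g f) : ev f W1 = 1 := by
  refine h.dih c2 (ls1 h 0) ?_ (tr1 (by decide +kernel))
  rw [← ev_append]
  exact lcx h (3, 2, 8) (by decide)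
theorem sp2 (h : Lifts σ 45 nn g f) : ev f W2 = 1 := by
  refine h.dih c2 (ls1 h 0) ?_ (tr1 (by decide +kernel))
  rw [← ev_append]
  exact lcx h (6, 5, 4) (by decide)
theorem sp3 (h : Lifts σ 45 nn g f) : ev f W3 = 1 := by
  have hc := lcx h
  have h1 : ev f (rep ([(1, true)] ++ [(2, true), (5, true), (0, true)]) 5) = 1 := by
    refine h.dih c2 (ls1 h 1) ?_ (tr1 (by decide +kernel))
    have e : ev f [((2 : X), true), (5, true), (0, true)] = f 2 * f 5 * f 0 := by
      change f 2 * (f 5 * (f 0 * 1)) = _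
      rw [mul_one, mul_assoc]
    rw [e]
    have p (x y : X) (hm : (x, y, 2) ∈ cx) : f x * f y * (f x * f y) = 1 := by
      have := hc (x, y, 2) hm
      change f x * (f y * (f x * (f y * 1))) = 1 at this
      rw [mul_one] at this
      rw [mul_assoc]
      exact this
    exact sq3 (sq1 hc 0) (sq1 hc 2) (sq1 hc 5) (p 2 5 (by decide)) (p 2 0 (by decide)) (p 5 0 (by decide))
  have e1 : ev f (rep ([(1, true)] ++ [((2 : X), true), (5, true), (0, true)]) 5) = (f 1 * f 2 * f 5 * f 0) ^ 5 := by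
    rw [ev_rep]
    congr 1
    change f 1 * (f 2 * (f 5 * (f 0 * 1))) = _
    simp only [mul_one, mul_assoc]
  have e2 : ev f W3 = (f 0 * (f 1 * f 2 * f 5)) ^ 5 := by
    rw [W3, ev_rep]
    congr 1
    change f 0 * (f 1 * (f 2 * (f 5 * 1))) = _
    simp only [mul_one, mul_assoc]
  rw [e1] at h1
  have e3 : f 0 * (f 1 * f 2 * f 5) = f 0 * (f 1 * f 2 * f 5 * f 0) * (f 0)⁻¹ := by group
  rw [e2, e3, conj_pow, h1, mul_one, mul_inv_cancel]
theorem sp4 (h : Lifts σ 45 nn g f) (hi : Inj g f S4) : ev f W4 = 1 := by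
  have hk : ev f W4 ∈ σ.ker := by
    rw [MonoidHom.mem_ker, h.ev]
    exact tr1 (by decide +kernel)
  have hs : (ev f (rep [((1 : X), true), (2, true), (3, true), (2, true), (3, true)] 5)) ^ 3 = 1 := by
    rw [← ev_rep]
    exact hi _ (by decide +kernel) (tr1 (by decide +kernel))
  have he := sq1 (lcx h) 4
  have e0 : ev f W4 = (ev f (rep [((1 : X), true), (2, true), (3, true), (2, true), (3, true)] 5) * f 4) ^ 3 := by
    rw [W4, ev_rep, ev_append]
    congr 2
    change f 4 * 1 = f 4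
    exact mul_one _
  have hc := mem_center_iff.1 (h.cen hk)
  have h4 : (ev f W4) ^ 4 = 1 := by
    rw [e0] at hc ⊢
    set s := ev f (rep [((1 : X), true), (2, true), (3, true), (2, true), (3, true)] 5)
    set e := f 4
    have ie : e⁻¹ = e := inv_eq_of_mul_eq_one_left he
    refine v4 (u := s * e * s⁻¹) (v := s⁻¹ * e * s) (e := e) ?_ hc ?_ ?_ he
    · have s2 : s⁻¹ * s⁻¹ = s := by
        have : s * (s * s) = 1 := by rw [← hs, pow_succ, pow_two, mul_assoc]
        rw [← mul_inv_rev]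
        exact inv_eq_of_mul_eq_one_left this
      calc (s * e) ^ 3 = s * e * s * e * s * e := by simp only [pow_succ, pow_zero, one_mul, mul_assoc]
        _ = s * e * (s⁻¹ * s⁻¹) * e * s * e := by rw [s2]
        _ = _ := by simp only [mul_assoc]
    · calc s * e * s⁻¹ * (s * e * s⁻¹) = s * (e * e) * s⁻¹ := by group
        _ = 1 := by rw [he, mul_one, mul_inv_cancel]
    · calc s⁻¹ * e * s * (s⁻¹ * e * s) = s⁻¹ * (e * e) * s := by group
        _ = 1 := by rw [he, mul_one, inv_mul_cancel]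
  exact h.one_of_pow (tr1 (by decide +kernel)) (show Nat.Coprime 4 45 by norm_num) h4
end
theorem card_low : 2160 ≤ Nat.card (Kl g S4) := by
  haveI : Finite Cfsg.Spor.Suz := SuzMain.fin
  have t1 : ev g W1 = 1 := tr1 (by decide +kernel)
  have t2 : ev g W2 = 1 := tr1 (by decide +kernel)
  have t3 : ev g W3 = 1 := tr1 (by decide +kernel)
  have t4 : ev g W4 = 1 := tr1 (by decide +kernel)
  have t5 : ev g zw = 1 := tr1 (by decide +kernel)
  have g0 := lvG (f := g) cxt (by
    intro w hw
    simp only [List.mem_cons, List.mem_nil_iff, or_false] at hw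
    rcases hw with rfl | rfl | rfl | rfl | rfl <;> assumption)
  have g1 := lvB (f := g) cxt (by
    intro w hw
    simp only [List.mem_cons, List.mem_nil_iff, or_false] at hw
    rcases hw with rfl | rfl | rfl <;> assumption)
  have g2 := lvC (f := g) cxt (by
    intro w hw
    simp only [List.mem_cons, List.mem_nil_iff, or_false] at hw
    rcases hw with rfl | rfl <;> assumption)
  rw [gen, Nat.card_congr (Subgroup.topEquiv (G := Cfsg.Spor.Suz)).toEquiv, card_inj.1] at g0
  omega

theorem low4 {P : Type} [Group P] [Finite P] {f : X → P} (hcx : ∀ p ∈ cx, ev f (cxw p) = 1) (h1 : ev f W1 = 1) :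
    Nat.card (Kl f S4) ≤ 2160 := by
  have f4 := lvD hcx (by
    intro w hw
    simp only [List.mem_cons, List.mem_nil_iff, or_false] at hw
    rcases hw with rfl
    assumption)
  have f5 := lvE hcx (by intro w hw; simp at hw)
  have f6 : Nat.card (Kl f S0) = 1 := card_Kl_none (fun _ => rfl)
  omega
theorem up6 {P : Type} [Group P] [Finite P] {f : X → P} (hcx : ∀ p ∈ cx, ev f (cxw p) = 1) (h1 : ev f W1 = 1)
    (h3 : ev f W3 = 1) (h4 : ev f W4 = 1) : Nat.card (Kl f S6) ≤ 251596800 := by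
  have f2 := lvB hcx (by
    intro w hw
    simp only [List.mem_cons, List.mem_nil_iff, or_false] at hw
    rcases hw with rfl | rfl | rfl <;> assumption)
  have f3 := lvC hcx (by
    intro w hw
    simp only [List.mem_cons, List.mem_nil_iff, or_false] at hw
    rcases hw with rfl | rfl <;> assumption)
  have f4 := low4 hcx h1
  omega
theorem bound (Γ : Type) [Group Γ] [Finite Γ] (σ : Γ →* Cfsg.Spor.Suz) (f : X → Γ) (h : Lifts σ 45 nn g f) :
    Nat.card (Kl f S7) ≤ 1345036492800 := by
  haveI : Finite Cfsg.Spor.Suz := SuzMain.fin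
  have hc := lcx h
  have h1 := sp1 h
  have h2 := sp2 h
  have h3 := sp3 h
  have k := card_low
  have k4 := low4 hc h1
  have hi : Inj g f S4 := h.inj (by omega)
  have h4 := sp4 h hi
  have f6 := up6 hc h1 h3 h4
  have hk : ∀ z, CA.cen z = true → ev f (CA.wd z) ∈ σ.ker := by
    intro z hz
    rw [MonoidHom.mem_ker, h.ev]
    refine tr1 ?_
    cases z <;> first | (exact absurd hz (by decide)) | decide +kernel
  have f7 := lvA hc (by
    intro w hw
    simp only [List.mem_cons, List.mem_nil_iff, or_false] at hw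
    rcases hw with rfl | rfl | rfl | rfl <;> assumption) (fun z hz y => (mem_center_iff.1 (h.cen (hk z hz)) y).symm)
    (fun z hz => h.pow _ (hk z hz))
  omega
theorem noExt9 : NoExt Cfsg.Spor.Suz 9 := by
  haveI : Finite Cfsg.Spor.Suz := SuzMain.fin
  exact noExt_of_bound (q := 45) (by norm_num) hord hn gen bound (by rw [card_inj.1]; norm_num)
theorem noExt5 : NoExt Cfsg.Spor.Suz 5 := by
  haveI : Finite Cfsg.Spor.Suz := SuzMain.fin
  exact noExt_of_bound (q := 45) (by norm_num) hord hn gen bound (by rw [card_inj.1]; norm_num)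
theorem exp : ∃ p : X → FS 13, LetNet 13 (FS 13).subtype p NXSoP.netX := exists_letNet NXSoP.bpx NXSoP.invx
noncomputable def pp : X → FS 13 := exp.choose
theorem lnp : LetNet 13 (FS 13).subtype pp NXSoP.netX := exp.choose_spec
noncomputable def ckp (w : W X) (m : ℕ) : Bool := chkW NXSoP.netX 13 w m 0 13
theorem trp (w : W X) (m : ℕ) (h : ckp w m = true) : (ev pp w) ^ m = 1 := lnp.pow_one (FS 13).subtype_injective h
theorem pord (x : X) : pp x ^ nn x = 1 := by
  have h : ∀ x, ckp [(x, true)] (nn x) = true := by intro x; fin_cases x <;> decide +kernel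
  have h1 := trp _ _ (h x)
  change (pp x * 1) ^ nn x = 1 at h1
  rwa [mul_one] at h1
theorem pt2 {w : W X} (h : (ck w 1 && ckp w 1) = true) : ev (pr pp g) w = 1 := by
  rw [Bool.and_eq_true] at h
  rw [ev_pr, tr1 h.1, show ev pp w = 1 by simpa using trp w 1 h.2]
  rfl
theorem zw_order : orderOf (ev pp zw) = 3 := by
  have h := orderOf_eq_prime_pow (x := ev pp zw) (p := 3) (n := 0) ?_ ?_
  · simpa using h
  · rw [pow_zero, pow_one]
    exact lnp.ne_one (V := 1) (by decide +kernel)
  · rw [show (3 : ℕ) ^ (0 + 1) = 3 by norm_num]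
    exact trp zw 3 (by decide +kernel)
theorem zw_comm (x : X) : pp x * ev pp zw = ev pp zw * pp x :=
  lnp.comm (FS 13).subtype_injective (by fin_cases x <;> decide +kernel)
theorem zwi_comm (x : X) : pp x * ev pp (winv zw) = ev pp (winv zw) * pp x :=
  lnp.comm (FS 13).subtype_injective (by fin_cases x <;> decide +kernel)
theorem pcx : ∀ p ∈ cx, ev (pr pp g) (cxw p) = 1 := by
  intro p hp
  have h : ∀ p ∈ cx, (ck (cxw p) 1 && ckp (cxw p) 1) = true := by
    rw [← List.all_eq_true]
    decide +kernel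
  exact pt2 (h p hp)
theorem q1 : ev (pr pp g) W1 = 1 := pt2 (by decide +kernel)
theorem q2 : ev (pr pp g) W2 = 1 := pt2 (by decide +kernel)
theorem q3 : ev (pr pp g) W3 = 1 := pt2 (by decide +kernel)
theorem q4 : ev (pr pp g) W4 = 1 := pt2 (by decide +kernel)
theorem hS7 : ∀ x, S7 x = true := fun _ => rfl
theorem card_E : Nat.card (EE pp g S7) ≤ 3 * Nat.card Cfsg.Spor.Suz := by
  haveI : Finite Cfsg.Spor.Suz := SuzMain.fin
  have f6 := up6 pcx q1 q3 q4
  have up : ∀ {w : W X}, ev (pr pp g) w = 1 → ev (fK (pr pp g) S7 hS7) w = 1 := by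
    intro w hw
    apply Subtype.ext
    rw [ev_fK, hw]
    rfl
  have cm : ∀ w : W X, ck w 1 = true → (∀ x, pp x * ev pp w = ev pp w * pp x) →
      ∀ x, pr pp g x * ev (pr pp g) w = ev (pr pp g) w * pr pp g x := by
    intro w h1 h2 x
    rw [ev_pr, tr1 h1]
    apply Prod.ext
    · exact h2 x
    · change g x * 1 = 1 * g x
      rw [mul_one, one_mul]
  have pwr : ∀ w : W X, ck w 1 = true → ckp w 45 = true → (ev (fK (pr pp g) S7 hS7) w) ^ 45 = 1 := by
    intro w h1 h2
    apply Subtype.ext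
    rw [Subgroup.coe_pow, ev_fK, ev_pr, tr1 h1]
    apply Prod.ext
    · exact trp w 45 h2
    · exact one_pow 45
  have f7 := lvA (f := fK (pr pp g) S7 hS7) (fun p hp => up (pcx p hp)) (by
    intro w hw
    simp only [List.mem_cons, List.mem_nil_iff, or_false] at hw
    rcases hw with rfl | rfl | rfl | rfl
    · exact up q1
    · exact up q2
    · exact up q3
    · exact up q4)
    (by
      intro z hz
      cases z
      case z => exact comm_fK _ _ _ (cm zw (by decide +kernel) zw_comm)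
      case zi => exact comm_fK _ _ _ (cm (winv zw) (by decide +kernel) zwi_comm)
      all_goals exact absurd hz (by decide))
    (by
      intro z hz
      cases z
      case z => exact pwr zw (by decide +kernel) (by decide +kernel)
      case zi => exact pwr (winv zw) (by decide +kernel) (by decide +kernel)
      all_goals exact absurd hz (by decide))
  rw [card_fK, card_fK] at f7
  rw [card_inj.1]
  change Nat.card (Kl (pr pp g) S7) ≤ _
  omega
theorem ex3 : ∃ (Γ : Type) (_ : Group Γ) (_ : Finite Γ) (σ : Γ →* Cfsg.Spor.Suz), Cfsg.IsStemExtension σ ∧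
      Nonempty (σ.ker ≃* Multiplicative (ZMod 3)) := by
  haveI : Finite Cfsg.Spor.Suz := SuzMain.fin
  exact exists_cover (p := pp) (g := g) (S := S7) (n := nn) (by norm_num) gen MulSuzA.perf card_E zw (by decide)
    (tr1 (by decide +kernel)) zw_order (fun x _ => zw_comm x) (fun x _ => pord x) (fun x _ => hord x) (fun x _ => by fin_cases x <;> decide)
end H35.MulSuzC
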