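import Cfsg.Prelude.Def_KGroupFacts
import Cfsg.Agent.Lib.H35.StemFour
import Cfsg.Agent.Lib.H35.MulSuzA
import Cfsg.Agent.Lib.H35.MulSuzC
/-!
# The Schur multiplier of Suz
-/
set_option autoImplicit false
namespace H35.MulSuz
open H35.Stem
theorem mult : Cfsg.HasCyclicSchurMultiplier Cfsg.Spor.Suz 6 := by
  haveI : Finite Cfsg.Spor.Suz := SuzMain.fin
  have hex := prod_cover (m := 2) (k := 3) (by norm_num) (by norm_num) (by norm_num) MulSuzA.ex2 MulSuzC.ex3
  have f2 : (6 : ℕ).factorization 2 = 1 := by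
    rw [show (6 : ℕ) = 2 * 3 by norm_num, Nat.factorization_mul (by norm_num) (by norm_num),
      Nat.Prime.factorization Nat.prime_two, Nat.Prime.factorization Nat.prime_three]
    simp
  have f3 : (6 : ℕ).factorization 3 = 1 := by
    rw [show (6 : ℕ) = 2 * 3 by norm_num, Nat.factorization_mul (by norm_num) (by norm_num),
      Nat.Prime.factorization Nat.prime_two, Nat.Prime.factorization Nat.prime_three]
    simp
  refine ⟨by simpa using hex, fun Γ _ _ σ hσ => H40.StemFinish.exists_surj_ker' hσ (m := 6) (by norm_num) ?_⟩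
  intro p hp hpG
  rw [SuzMain.card_inj.1] at hpG
  obtain ⟨a, ha, rfl⟩ := prime_dvd_list hp [(2, 13), (3, 7), (5, 2), (7, 1), (11, 1), (13, 1)] (by decide +kernel)
    (by simpa using hpG)
  fin_cases ha
  · exact cond_two Nat.prime_two (by simpa using MulSuzA.noExt4) hσ (by rw [f2])
  · exact cond_two Nat.prime_three (by simpa using MulSuzC.noExt9) hσ (by rw [f3])
  · exact cond_one (by norm_num) MulSuzC.noExt5 hσ 6
  all_goals exact cond_prime hp (by rw [SuzMain.card_inj.1]; norm_num) (by rw [SuzMain.card_inj.1]; norm_num) hσ 6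
end H35.MulSuz
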